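import Mathlib
import Cfsg.Agent.Lib.BlockT.SylowIn

/-!
# Group theory for the Broline–Garrison theorem

* `NilMod A E`: `A/E` is nilpotent, written with the lower central series of `A` in the ambient group.
* `exists_sylow_not_normal`: if `A/E` is not nilpotent, there is a Sylow subgroup `R` of `A` with
  `R E` not normal in `A`.
* `sup_normalizer_eq_top`: the Frattini argument.
-/

set_option autoImplicit false

namespace Cfsg.Agent.Lib.CharDeg.BrolineGroup

open Subgroup

open Cfsg.Agent.Lib.BlockT.SylowIn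

variable {G : Type*} [Group G]

/-- `A/E` is nilpotent. -/
def NilMod (A E : Subgroup G) : Prop := ∃ c, A.lowerCentralSeries c ≤ E

theorem NilMod.inf {A E₁ E₂ : Subgroup G} (h₁ : NilMod A E₁) (h₂ : NilMod A E₂) :
    NilMod A (E₁ ⊓ E₂) := by
  obtain ⟨c, hc⟩ := h₁
  obtain ⟨d, hd⟩ := h₂
  refine ⟨max c d, le_inf ?_ ?_⟩
  · exact (A.lowerCentralSeries_antitone (le_max_left c d)).trans hc
  · exact (A.lowerCentralSeries_antitone (le_max_right c d)).trans hd

theorem NilMod.of_commutator {A L E : Subgroup G} (h : NilMod A L) (hc : ⁅L, A⁆ ≤ E) :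
    NilMod A E := by
  obtain ⟨c, hL⟩ := h
  exact ⟨c + 1, (Subgroup.commutator_mono hL le_rfl).trans hc⟩

theorem nilMod_self (A : Subgroup G) : NilMod A A := ⟨0, le_rfl⟩

theorem nilMod_iff_map {A E : Subgroup G} [E.Normal] :
    NilMod A E ↔ Group.IsNilpotent (A.map (QuotientGroup.mk' E)) := by
  rw [isNilpotent_iff_lowerCentralSeries]
  constructor
  · rintro ⟨c, hc⟩
    refine ⟨c, ?_⟩
    rw [← map_lowerCentralSeries, Subgroup.map_eq_bot_iff, QuotientGroup.ker_mk']
    exact hc
  · rintro ⟨c, hc⟩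
    refine ⟨c, ?_⟩
    rw [← map_lowerCentralSeries, Subgroup.map_eq_bot_iff, QuotientGroup.ker_mk'] at hc
    exact hc

theorem nilMod_bot_iff {A : Subgroup G} : NilMod A ⊥ ↔ Group.IsNilpotent A := by
  rw [isNilpotent_iff_lowerCentralSeries]
  simp [NilMod]

variable [Finite G]

/-- If `A/E` is not nilpotent, some Sylow subgroup of `A` has `R E` not normal in `A`. -/
theorem exists_sylow_not_normal {A E : Subgroup G} [E.Normal] (h : ¬ NilMod A E) :
    ∃ (r : ℕ) (_ : Fact r.Prime) (R : Subgroup G), IsSylowIn r R A ∧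
      ¬ A ≤ normalizer ((R ⊔ E : Subgroup G) : Set G) := by
  classical
  rw [nilMod_iff_map] at h
  set π := QuotientGroup.mk' E with hπ
  set Ā := A.map π with hĀ
  have htfae := Group.isNilpotent_of_finite_tfae (G := Ā)
  have h4 : ¬ ∀ (p : ℕ) (_hp : Fact p.Prime) (P : Sylow p Ā), (↑P : Subgroup Ā).Normal := by
    intro hall
    exact h ((htfae.out 0 3).2 hall)
  push Not at h4
  obtain ⟨r, hr, P, hP⟩ := h4
  let f : A →* Ā := π.subgroupMap A
  have hf : Function.Surjective f := π.subgroupMap_surjective A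
  obtain ⟨S, hS⟩ := Sylow.mapSurjective_surjective hf r P
  refine ⟨r, hr, (S : Subgroup A).map A.subtype, ⟨S, rfl⟩, ?_⟩
  intro hnorm
  apply hP
  have hPeq : (P : Subgroup Ā) = (S : Subgroup A).map f := by
    rw [← hS, Sylow.coe_mapSurjective]
  constructor
  intro n hn g
  rw [hPeq] at hn ⊢
  obtain ⟨x, hx, rfl⟩ := hn
  obtain ⟨a, rfl⟩ := hf g
  have h1 : (a : G) * (x : G) * (a : G)⁻¹ ∈ ((S : Subgroup A).map A.subtype ⊔ E : Subgroup G) := by
    have h2 := (mem_normalizer_iff.1 (hnorm a.2) (x : G)).1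
      (mem_sup_left (Subgroup.mem_map_of_mem A.subtype hx))
    exact h2
  rw [Subgroup.mem_sup_of_normal_right] at h1
  obtain ⟨y, hy, e, he, hye⟩ := h1
  obtain ⟨y', hy', rfl⟩ := hy
  refine ⟨y', hy', ?_⟩
  apply Subtype.ext
  show π (y' : G) = π ((a : G) * (x : G) * (a : G)⁻¹)
  rw [← hye, map_mul]
  have : π e = 1 := (QuotientGroup.eq_one_iff e).2 he
  rw [this, mul_one]
  rfl

/-- If `A/L` is nilpotent then `R L` is normal in `A` for `R` a Sylow subgroup of `A`. -/
theorem normalizer_of_nilMod {A L R : Subgroup G} [L.Normal] (h : NilMod A L) {r : ℕ}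
    [hr : Fact r.Prime] (hR : IsSylowIn r R A) :
    A ≤ normalizer ((R ⊔ L : Subgroup G) : Set G) := by
  classical
  rw [nilMod_iff_map] at h
  set π := QuotientGroup.mk' L with hπ
  set Ā := A.map π with hĀ
  let f : A →* Ā := π.subgroupMap A
  have hf : Function.Surjective f := π.subgroupMap_surjective A
  obtain ⟨S, rfl⟩ := hR
  let P : Sylow r Ā := S.mapSurjective hf
  have hPn : (P : Subgroup Ā).Normal := by
    have h3 := Group.isNilpotent_of_finite_tfae (G := Ā)
    have h4 : ∀ (p : ℕ) (_hp : Fact p.Prime) (P : Sylow p Ā), (↑P : Subgroup Ā).Normal :=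
      (h3.out 0 3).1 h
    exact h4 r hr P
  have hPeq : (P : Subgroup Ā) = (S : Subgroup A).map f := Sylow.coe_mapSurjective _ _
  intro a ha
  rw [mem_normalizer_iff]
  -- one inclusion suffices for a conjugate of a subgroup in a finite group
  have key : ∀ b : A, ∀ x ∈ ((S : Subgroup A).map A.subtype ⊔ L : Subgroup G),
      (b : G) * x * (b : G)⁻¹ ∈ ((S : Subgroup A).map A.subtype ⊔ L : Subgroup G) := by
    intro b x hx
    rw [Subgroup.mem_sup_of_normal_right] at hx ⊢
    obtain ⟨y, hy, e, he, rfl⟩ := hx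
    obtain ⟨y', hy', rfl⟩ := hy
    have h5 : f b * f y' * (f b)⁻¹ ∈ (P : Subgroup Ā) := by
      apply hPn.conj_mem
      rw [hPeq]
      exact Subgroup.mem_map_of_mem f hy'
    rw [hPeq] at h5
    obtain ⟨z, hz, hzeq⟩ := h5
    have h6 : π (z : G) = π ((b : G) * (y' : G) * (b : G)⁻¹) := by
      rw [map_mul, map_mul, map_inv]
      exact congrArg Subtype.val hzeq
    have h7 : ((z : G))⁻¹ * ((b : G) * (y' : G) * (b : G)⁻¹) ∈ L := by
      rw [← QuotientGroup.eq_one_iff, ← QuotientGroup.mk'_apply, map_mul, map_inv, h6, inv_mul_cancel]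
    refine ⟨(z : G), Subgroup.mem_map_of_mem A.subtype hz,
      ((z : G))⁻¹ * ((b : G) * ((y' : G) * e) * (b : G)⁻¹), ?_, by
        simp only [Subgroup.subtype_apply]; group⟩
    have h8 : ((z : G))⁻¹ * ((b : G) * ((y' : G) * e) * (b : G)⁻¹) =
        ((z : G))⁻¹ * ((b : G) * (y' : G) * (b : G)⁻¹) * ((b : G) * e * (b : G)⁻¹) := by group
    rw [h8]
    exact mul_mem h7 ((inferInstance : L.Normal).conj_mem e he _)
  intro x
  constructor
  · exact key ⟨a, ha⟩ x
  · intro hx
    have := key ⟨a⁻¹, inv_mem ha⟩ _ hx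
    simpa [mul_assoc] using this

/-- The Frattini argument. -/
theorem sup_normalizer_eq_top {A L E R : Subgroup G} [hAn : A.Normal] [hLn : L.Normal]
    [hEn : E.Normal] (hLA : L ≤ A)
    (h : NilMod A L) {r : ℕ} [hr : Fact r.Prime] (hR : IsSylowIn r R A) :
    L ⊔ normalizer ((R ⊔ E : Subgroup G) : Set G) = ⊤ := by
  classical
  set T := R ⊔ L with hT
  have hTA : T ≤ A := sup_le hR.le hLA
  have hNA := normalizer_of_nilMod h hR
  -- conjugates of `R`
  have hmapA : ∀ g : G, A.map (MulAut.conj g).toMonoidHom = A := fun g =>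
    Subgroup.Normal.map_conj_eq A g
  have hmapL : ∀ g : G, L.map (MulAut.conj g).toMonoidHom = L := fun g =>
    Subgroup.Normal.map_conj_eq L g
  have hmapE : ∀ g : G, E.map (MulAut.conj g).toMonoidHom = E := fun g =>
    Subgroup.Normal.map_conj_eq E g
  have hTn : T.Normal := by
    rw [Subgroup.normal_iff_map_conj_eq]
    intro g
    have h1 : IsSylowIn r (R.map (MulAut.conj g).toMonoidHom) A := by
      have := hR.conj g
      rwa [hmapA] at this
    obtain ⟨a, ha, hae⟩ := hR.exists_conj h1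
    have h2 := (mem_normalizer_iff_map_conj_eq (H := T) (g := a)).1 (hNA ha)
    show T.map (MulAut.conj g).toMonoidHom = T
    rw [hT, Subgroup.map_sup, ← hae, hmapL g]
    have h3 : (R.map (MulAut.conj a).toMonoidHom) ⊔ L = T.map (MulAut.conj a).toMonoidHom := by
      rw [hT, Subgroup.map_sup, hmapL a]
    rw [h3]
    exact h2
  have hRT : IsSylowIn r R T := hR.of_le le_sup_left hTA
  rw [eq_top_iff]
  intro g _
  have h1 : IsSylowIn r (R.map (MulAut.conj g).toMonoidHom) T := by
    have h4 := hRT.conj g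
    have h5 : T.map (MulAut.conj g).toMonoidHom = T := Subgroup.Normal.map_conj_eq T g
    rwa [h5] at h4
  obtain ⟨t, ht, hte⟩ := hRT.exists_conj h1
  have hgn : t⁻¹ * g ∈ normalizer ((R ⊔ E : Subgroup G) : Set G) := by
    rw [mem_normalizer_iff_map_conj_eq]
    have h6 : (MulAut.conj (t⁻¹ * g)).toMonoidHom =
        (MulAut.conj t⁻¹).toMonoidHom.comp (MulAut.conj g).toMonoidHom := by
      ext x
      simp only [MulEquiv.coe_toMonoidHom, MulAut.conj_apply, MonoidHom.comp_apply]
      group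
    have h7 : (MulAut.conj t⁻¹).toMonoidHom.comp (MulAut.conj t).toMonoidHom = MonoidHom.id G := by
      ext x
      simp only [MulEquiv.coe_toMonoidHom, MulAut.conj_apply, MonoidHom.comp_apply, MonoidHom.id_apply]
      group
    have h8 : R.map (MulAut.conj (t⁻¹ * g)).toMonoidHom = R := by
      rw [h6, ← Subgroup.map_map, ← hte, Subgroup.map_map, h7, Subgroup.map_id]
    show (R ⊔ E).map (MulAut.conj (t⁻¹ * g)).toMonoidHom = R ⊔ E
    rw [Subgroup.map_sup, h8, hmapE]
  rw [hT, Subgroup.mem_sup_of_normal_right] at ht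
  obtain ⟨x, hx, l, hl, rfl⟩ := ht
  have hxW : x ∈ normalizer ((R ⊔ E : Subgroup G) : Set G) := by
    rw [mem_normalizer_iff_map_conj_eq]
    have h8 : R.map (MulAut.conj x).toMonoidHom = R := by
      apply Subgroup.ext
      intro y
      simp only [Subgroup.mem_map, MulEquiv.coe_toMonoidHom, MulAut.conj_apply]
      constructor
      · rintro ⟨z, hz, rfl⟩
        exact mul_mem (mul_mem hx hz) (inv_mem hx)
      · intro hy
        exact ⟨x⁻¹ * y * x, mul_mem (mul_mem (inv_mem hx) hy) hx, by group⟩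
    show (R ⊔ E).map (MulAut.conj x).toMonoidHom = R ⊔ E
    rw [Subgroup.map_sup, h8, hmapE]
  have h9 : g = (x * l * x⁻¹) * (x * ((x * l)⁻¹ * g)) := by group
  rw [h9]
  exact Subgroup.mul_mem_sup (hLn.conj_mem l hl x) (mul_mem hxW hgn)

end Cfsg.Agent.Lib.CharDeg.BrolineGroup
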