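import Mathlib
import Cfsg.Agent.Lib.CharDeg.BrolineGroup
import Cfsg.Agent.Lib.Char.Clifford
import Cfsg.Agent.Lib.Char.Induced
import Cfsg.Agent.Lib.Char.IndRep
import Cfsg.Agent.Lib.Char.Linear
import Cfsg.Agent.Lib.Char.Degree
import Cfsg.Agent.Lib.BlockT.Inflate

/-!
# The character theoretic core of the Broline–Garrison theorem
-/

set_option autoImplicit false

namespace Cfsg.Agent.Lib.CharDeg.BrolineMain

open Cfsg Subgroup
open Cfsg.Agent.Lib.CharDeg.BrolineGroup
open Cfsg.Agent.Lib.BlockT.SylowIn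
open Cfsg.Agent.Lib.Char.Basic Cfsg.Agent.Lib.Char.Ortho Cfsg.Agent.Lib.Char.Induced
open Cfsg.Agent.Lib.Char.IndRep Cfsg.Agent.Lib.Char.Clifford Cfsg.Agent.Lib.Char.Degree
open Cfsg.Agent.Lib.Char.Complete
open scoped ComplexConjugate

universe u

/-- The kernel of a character lies in the kernel of its irreducible constituents. -/
theorem ker_of_constituent {X : Type*} [Group X] [Fintype X] {Φ θ : X → ℂ} (hΦ : IsCharacter X Φ)
    (hθ : IsIrrCharacter X θ) (h : classInner Φ θ ≠ 0) {x : X} (hx : Φ x = Φ 1) : θ x = θ 1 := by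
  have hsub := isCharacter_sub_of_classInner_ne_zero hΦ hθ h
  have hθc := isCharacter_of_isIrrCharacter hθ
  have h1 := norm_le_charDegree hθc x
  have h2 := norm_le_charDegree hsub x
  have ha : ((charDegree θ : ℕ) : ℂ) = θ 1 := charDegree_natCast hθc
  have hb : ((charDegree (Φ - θ) : ℕ) : ℂ) = (Φ - θ) 1 := charDegree_natCast hsub
  set a := charDegree θ
  set b := charDegree (Φ - θ)
  set z := θ x with hz
  set w := (Φ - θ) x with hw
  have hsum : z + w = (a : ℂ) + b := by
    rw [ha, hb, hw, hz]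
    simp only [Pi.sub_apply]
    rw [hx]
    ring
  have hre := congrArg Complex.re hsum
  simp only [Complex.add_re, Complex.natCast_re] at hre
  have hz1 : z.re ≤ ‖z‖ := Complex.re_le_norm z
  have hw1 : w.re ≤ ‖w‖ := Complex.re_le_norm w
  have hzre : z.re = a := by linarith
  have hzn : ‖z‖ = a := by linarith
  have him : z.im = 0 := by
    have h3 := Complex.sq_norm z
    rw [Complex.normSq_apply, hzn, hzre] at h3
    nlinarith
  rw [← ha]
  apply Complex.ext
  · simpa using hzre
  · simpa using him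

variable {G : Type*} [Group G] [Fintype G]

/-- The restriction to a supplement of a subgroup of the kernel is irreducible. -/
theorem isIrr_restrict {χ : G → ℂ} (hχ : IsIrrCharacter G χ) {L W : Subgroup G} [L.Normal]
    (hLW : L ⊔ W = ⊤) (hL : ∀ l ∈ L, χ l = χ 1) : IsIrrCharacter W (fun w : W => χ w) := by
  obtain ⟨φ, hφ, rfl⟩ := Cfsg.Agent.Lib.Char.Linear.isIrrCharacter_descend (QuotientGroup.mk' L)
    (QuotientGroup.mk'_surjective L) hχ (fun k hk => by
      rw [QuotientGroup.ker_mk'] at hk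
      exact hL k hk)
  have hf : Function.Surjective ((QuotientGroup.mk' L).comp W.subtype) := by
    intro q
    obtain ⟨g, rfl⟩ := QuotientGroup.mk'_surjective L q
    have hg : g ∈ L ⊔ W := by rw [hLW]; trivial
    rw [Subgroup.mem_sup_of_normal_left] at hg
    obtain ⟨l, hl, w, hw, rfl⟩ := hg
    refine ⟨⟨w, hw⟩, ?_⟩
    simp only [MonoidHom.comp_apply, Subgroup.subtype_apply, QuotientGroup.mk'_apply]
    rw [QuotientGroup.mk_mul, (QuotientGroup.eq_one_iff l).2 hl, one_mul]
  exact Cfsg.Agent.Lib.Char.Linear.isIrrCharacter_comp _ hf hφ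

open Classical in
/-- The number of conjugators into `W`. -/
noncomputable def cnt (W : Subgroup G) (x : G) : ℕ :=
  (Finset.univ.filter (fun y : G => y⁻¹ * x * y ∈ W)).card

theorem cnt_le (W : Subgroup G) (x : G) : cnt W x ≤ Nat.card G := by
  classical
  unfold cnt
  rw [Nat.card_eq_fintype_card]
  exact Finset.card_le_univ _

theorem cnt_eq_card {W : Subgroup G} {x : G} (h : ∀ y : G, y⁻¹ * x * y ∈ W) :
    cnt W x = Nat.card G := by
  classical
  unfold cnt
  rw [Nat.card_eq_fintype_card, ← Finset.card_univ]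
  congr 1
  ext y
  simp [h y]

theorem of_cnt_eq_card {W : Subgroup G} {x : G} (h : cnt W x = Nat.card G) (y : G) :
    y⁻¹ * x * y ∈ W := by
  classical
  unfold cnt at h
  rw [Nat.card_eq_fintype_card, ← Finset.card_univ] at h
  have h1 := Finset.eq_univ_of_card _ (by rw [h, Finset.card_univ])
  have h2 : y ∈ Finset.univ.filter (fun y : G => y⁻¹ * x * y ∈ W) := by
    rw [h1]; exact Finset.mem_univ y
  exact (Finset.mem_filter.1 h2).2

/-- Induced character values. -/
theorem indFun_restrict_apply {χ : G → ℂ} (hχ : IsClassFunction G χ) (W : Subgroup G) (x : G) :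
    indFun W (fun w : W => χ w) x = χ x * ((Nat.card W : ℂ)⁻¹ * cnt W x) := by
  classical
  rw [indFun_apply]
  have h1 : ∀ y : G, extendByZero W (fun w : W => χ w) (y⁻¹ * x * y) =
      if y⁻¹ * x * y ∈ W then χ x else 0 := by
    intro y
    split_ifs with h
    · rw [extendByZero_of_mem _ _ h]
      have := hχ x y⁻¹
      simpa using this
    · rw [extendByZero_of_not_mem _ _ h]
  simp only [h1]
  rw [Finset.sum_ite, Finset.sum_const, Finset.sum_const_zero, add_zero, nsmul_eq_mul]
  unfold cnt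
  ring

/-- The core of the Broline–Garrison theorem. -/
theorem main_lemma (χ : IrrCharacter G) (K A E L : Subgroup G) [hKn : K.Normal] [hAn : A.Normal]
    [hEn : E.Normal] [hLn : L.Normal] (hK : ∀ g : G, g ∈ K ↔ (χ : G → ℂ) g = (χ : G → ℂ) 1)
    (hKA : K ≤ A) (hEL : E < L) (hLK : L ≤ K) (hE : ¬ NilMod A E)
    (hmaxE : ∀ F : Subgroup G, F.Normal → E < F → F ≤ K → NilMod A F)
    (hminL : ∀ F : Subgroup G, F.Normal → E ≤ F → F ≤ L → F = E ∨ F = L)
    (hY : ∀ Y : Subgroup G, Y.Normal → Y ≤ A → Y ⊓ L = E → Y ≤ K) :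
    ∃ ψ : IrrCharacter G, charDegree (χ : G → ℂ) < charDegree (ψ : G → ℂ) ∧
      ∃ D : Subgroup G, (∀ g : G, g ∈ D ↔ (ψ : G → ℂ) g = (ψ : G → ℂ) 1) ∧ D < K := by
  classical
  haveI := finite_irrCharacter (G := G)
  letI := Fintype.ofFinite (IrrCharacter G)
  have hχc := isCharacter_of_isIrrCharacter χ.2
  have hχcl : IsClassFunction G (χ : G → ℂ) := isClassFunction_of_isCharacter hχc
  have hLA : L ≤ A := hLK.trans hKA
  have hEK : E ≤ K := hEL.le.trans hLK
  have hNL : NilMod A L := hmaxE L hLn hEL hLK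
  obtain ⟨r, hr, R, hR, hRE⟩ := exists_sylow_not_normal hE
  set Q : Subgroup G := R ⊔ E with hQ
  set W : Subgroup G := normalizer ((Q : Subgroup G) : Set G) with hW
  have hQW : Q ≤ W := Subgroup.le_normalizer
  have hEW : E ≤ W := le_sup_right.trans hQW
  have hRW : R ≤ W := le_sup_left.trans hQW
  have hLW : L ⊔ W = ⊤ := sup_normalizer_eq_top hLA hNL hR
  have hLnotW : ¬ L ≤ W := by
    intro h
    rw [sup_eq_right.2 h] at hLW
    apply hRE
    rw [hLW]
    exact le_top
  -- the restriction and the induced character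
  set χW : W → ℂ := fun w => (χ : G → ℂ) w with hχWdef
  have hχW : IsIrrCharacter W χW := isIrr_restrict χ.2 hLW (fun l hl => (hK l).1 (hLK hl))
  set P : G → ℂ := indFun W χW with hPdef
  have hPc : IsCharacter G P := isCharacter_indFun W (isCharacter_of_isIrrCharacter hχW)
  have hPval : ∀ x : G, P x = (χ : G → ℂ) x * ((Nat.card W : ℂ)⁻¹ * cnt W x) :=
    fun x => indFun_restrict_apply hχcl W x
  have hcnt1 : cnt W (1 : G) = Nat.card G := cnt_eq_card (fun y => by simp)
  have hχ1 : (χ : G → ℂ) 1 ≠ 0 := by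
    rw [← charDegree_natCast hχc]
    exact Nat.cast_ne_zero.2 (charDegree_pos χ.2).ne'
  have hWc : (Nat.card W : ℂ) ≠ 0 := Nat.cast_ne_zero.2 Nat.card_pos.ne'
  have hGc : (Nat.card G : ℂ) ≠ 0 := Nat.cast_ne_zero.2 Nat.card_pos.ne'
  -- Frobenius reciprocity
  have hcons : ∀ ψ : IrrCharacter G, classInner P (ψ : G → ℂ) ≠ 0 →
      classInner (fun w : W => (ψ : G → ℂ) w) χW ≠ 0 := by
    intro ψ h
    rw [hPdef, classInner_indFun_left W χW _ (isClassFunction_of_isCharacter
      (isCharacter_of_isIrrCharacter ψ.2))] at h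
    exact classInner_ne_zero_comm h
  have hψWc : ∀ ψ : IrrCharacter G, IsCharacter W (fun w : W => (ψ : G → ℂ) w) := fun ψ =>
    isCharacter_restrict W (isCharacter_of_isIrrCharacter ψ.2)
  -- `E` lies in the kernel of every constituent
  have hEker : ∀ ψ : IrrCharacter G, classInner P (ψ : G → ℂ) ≠ 0 → ∀ e ∈ E,
      (ψ : G → ℂ) e = (ψ : G → ℂ) 1 := by
    intro ψ h e he
    refine ker_of_constituent hPc ψ.2 h ?_
    rw [hPval, hPval, hcnt1, (hK e).1 (hEK he), cnt_eq_card]
    intro y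
    apply hEW
    have := hEn.conj_mem e he y⁻¹
    simpa using this
  -- the kernel of a constituent not containing `L`
  have hker : ∀ ψ : IrrCharacter G, classInner P (ψ : G → ℂ) ≠ 0 →
      ¬ (∀ l ∈ L, (ψ : G → ℂ) l = (ψ : G → ℂ) 1) → ∀ g : G, g ∈ E ↔ (ψ : G → ℂ) g = (ψ : G → ℂ) 1 := by
    intro ψ h hLψ
    have hψc := isCharacter_of_isIrrCharacter ψ.2
    set D : Subgroup G := charKer hψc with hD
    have hDmem : ∀ g : G, g ∈ D ↔ (ψ : G → ℂ) g = (ψ : G → ℂ) 1 := fun g => Iff.rfl
    haveI hDn : D.Normal := charKer_normal hψc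
    have hED : E ≤ D := fun e he => hEker ψ h e he
    have hLD : ¬ L ≤ D := fun hle => hLψ (fun l hl => hle hl)
    have hDL : D ⊓ L = E := by
      rcases hminL (D ⊓ L) inferInstance (le_inf hED hEL.le) inf_le_right with h1 | h1
      · exact h1
      · exact absurd (inf_eq_right.1 h1) hLD
    have hDK : D ⊓ K = E := by
      by_contra hne
      have hlt : E < D ⊓ K := lt_of_le_of_ne (le_inf hED hEK) (Ne.symm hne)
      have h1 := hmaxE (D ⊓ K) inferInstance hlt inf_le_right
      have h2 := h1.inf hNL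
      have h3 : D ⊓ K ⊓ L = E := by
        rw [inf_assoc, inf_eq_right.2 hLK, hDL]
      rw [h3] at h2
      exact hE h2
    have hDA : D ⊓ A = E := by
      have h1 : (D ⊓ A) ⊓ L = E := by
        rw [inf_assoc, inf_eq_right.2 hLA, hDL]
      have h2 := hY (D ⊓ A) inferInstance inf_le_right h1
      apply le_antisymm
      · rw [← hDK]
        exact le_inf inf_le_left h2
      · exact le_inf hED (hEK.trans hKA)
    have hDW : D ≤ W := by
      intro d hd
      have hkey : ∀ d ∈ D, ∀ h ∈ Q, d * h * d⁻¹ ∈ Q := by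
        intro d hd h hh
        rw [hQ, Subgroup.mem_sup_of_normal_right] at hh
        obtain ⟨x, hx, e, he, rfl⟩ := hh
        have h1 : d * x * d⁻¹ * x⁻¹ ∈ D ⊓ A := by
          refine Subgroup.mem_inf.2 ⟨?_, ?_⟩
          · have : d * x * d⁻¹ * x⁻¹ = d * (x * d⁻¹ * x⁻¹) := by group
            rw [this]
            exact mul_mem hd (hDn.conj_mem _ (inv_mem hd) x)
          · exact mul_mem (hAn.conj_mem x (hR.le hx) d) (inv_mem (hR.le hx))
        rw [hDA] at h1
        have h2 : d * (x * e) * d⁻¹ = (d * x * d⁻¹ * x⁻¹) * x * (d * e * d⁻¹) := by group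
        rw [h2]
        have h3 : (d * x * d⁻¹ * x⁻¹) * x * (d * e * d⁻¹) =
            x * (x⁻¹ * (d * x * d⁻¹ * x⁻¹) * x) * (d * e * d⁻¹) := by group
        rw [h3, hQ]
        refine mul_mem (mul_mem (mem_sup_left hx) (mem_sup_right ?_))
          (mem_sup_right (hEn.conj_mem e he d))
        exact hEn.conj_mem _ h1 x⁻¹ |> fun h4 => by simpa using h4
      rw [hW, mem_normalizer_iff]
      intro h
      constructor
      · exact hkey d hd h
      · intro h1
        have := hkey d⁻¹ (inv_mem hd) _ h1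
        simpa [mul_assoc] using this
    have hDK' : D ≤ K := by
      intro d hd
      rw [hK]
      have h1 : (fun w : W => (ψ : G → ℂ) w) ⟨d, hDW hd⟩ = (fun w : W => (ψ : G → ℂ) w) 1 := by
        show (ψ : G → ℂ) d = (ψ : G → ℂ) 1
        exact hd
      have h2 := ker_of_constituent (hψWc ψ) hχW (hcons ψ h) h1
      exact h2
    have hDE : D = E := by
      rw [← hDK]
      exact (inf_eq_left.2 hDK').symm
    intro g
    rw [← hDE]
    exact hDmem g
  -- a constituent not containing `L`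
  obtain ⟨m, hm⟩ := exists_nat_combination hPc
  have hmval : ∀ ψ : IrrCharacter G, classInner P (ψ : G → ℂ) = (m ψ : ℂ) := by
    intro ψ
    rw [hm, classInner_of_nat_combination m ψ]
  have hPsum : ∀ x : G, P x = ∑ ψ, (m ψ : ℂ) * (ψ : G → ℂ) x := by
    intro x
    rw [hm]
    simp [Finset.sum_apply]
  have hm0 : ∀ ψ : IrrCharacter G, m ψ ≠ 0 → classInner P (ψ : G → ℂ) ≠ 0 := by
    intro ψ h
    rw [hmval]
    exact Nat.cast_ne_zero.2 h
  obtain ⟨ψ₀, hψ₀, hψ₀L⟩ : ∃ ψ : IrrCharacter G, classInner P (ψ : G → ℂ) ≠ 0 ∧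
      ¬ (∀ l ∈ L, (ψ : G → ℂ) l = (ψ : G → ℂ) 1) := by
    by_contra hcon
    push Not at hcon
    apply hLnotW
    intro l hl
    have h1 : P l = P 1 := by
      rw [hPsum, hPsum]
      refine Finset.sum_congr rfl fun ψ _ => ?_
      by_cases h0 : m ψ = 0
      · simp [h0]
      · rw [hcon ψ (hm0 ψ h0) l hl]
    rw [hPval, hPval, (hK l).1 (hLK hl), hcnt1] at h1
    have h2 : (cnt W l : ℂ) = (Nat.card G : ℂ) := by
      have h3 := mul_left_cancel₀ hχ1 h1
      exact mul_left_cancel₀ (inv_ne_zero hWc) h3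
    have h3 : cnt W l = Nat.card G := by exact_mod_cast h2
    have := of_cnt_eq_card h3 1
    simpa using this
  -- suppose the conclusion fails
  by_contra hcon
  push Not at hcon
  have hall : ∀ ψ : IrrCharacter G, classInner P (ψ : G → ℂ) ≠ 0 →
      (fun w : W => (ψ : G → ℂ) w) = χW := by
    intro ψ h
    by_cases hLψ : ∀ l ∈ L, (ψ : G → ℂ) l = (ψ : G → ℂ) 1
    · have h1 := isIrr_restrict ψ.2 hLW hLψ
      by_contra hne
      exact hcons ψ h (classInner_eq_zero_of_isIrr_of_ne h1 hχW hne)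
    · have hker' := hker ψ h hLψ
      have hdeg : charDegree (ψ : G → ℂ) ≤ charDegree (χ : G → ℂ) := by
        by_contra hlt
        exact hcon ψ (not_le.1 hlt) E hker' (lt_of_lt_of_le hEL hLK)
      refine eq_of_constituent_of_deg_le (hψWc ψ) hχW (hcons ψ h)
        (a := charDegree (ψ : G → ℂ)) (b := charDegree (χ : G → ℂ)) ?_ ?_ hdeg
      · exact (charDegree_natCast (isCharacter_of_isIrrCharacter ψ.2)).symm
      · exact (charDegree_natCast hχc).symm
  -- vanishing of `χ`
  have hPW : ∀ w : W, P w = (∑ ψ, (m ψ : ℂ)) * (χ : G → ℂ) w := by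
    intro w
    rw [hPsum, Finset.sum_mul]
    refine Finset.sum_congr rfl fun ψ _ => ?_
    by_cases h0 : m ψ = 0
    · simp [h0]
    · have := congrFun (hall ψ (hm0 ψ h0)) w
      rw [show (ψ : G → ℂ) (w : G) = χW w from this]
  have hM : (∑ ψ, (m ψ : ℂ)) = (Nat.card W : ℂ)⁻¹ * Nat.card G := by
    have h1 := hPW 1
    rw [hPval] at h1
    simp only [OneMemClass.coe_one] at h1
    rw [hcnt1] at h1
    have h2 : (χ : G → ℂ) 1 * ((Nat.card W : ℂ)⁻¹ * Nat.card G) =
        (χ : G → ℂ) 1 * (∑ ψ, (m ψ : ℂ)) := by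
      rw [h1]; ring
    exact (mul_left_cancel₀ hχ1 h2).symm
  have hvan : ∀ w ∈ W, (χ : G → ℂ) w ≠ 0 → ∀ y : G, y⁻¹ * w * y ∈ W := by
    intro w hw hne y
    have h1 := hPW ⟨w, hw⟩
    rw [hPval, hM] at h1
    simp only at h1
    have h2 : (χ : G → ℂ) w * ((Nat.card W : ℂ)⁻¹ * cnt W w) =
        (χ : G → ℂ) w * ((Nat.card W : ℂ)⁻¹ * Nat.card G) := by
      rw [h1]; ring
    have h3 := mul_left_cancel₀ hne h2
    have h4 : (cnt W w : ℂ) = (Nat.card G : ℂ) := mul_left_cancel₀ (inv_ne_zero hWc) h3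
    have h5 : cnt W w = Nat.card G := by exact_mod_cast h4
    exact of_cnt_eq_card h5 y
  -- the normal core
  set Y : Subgroup G := A ⊓ W.normalCore with hYdef
  have hYK : Y ≤ K := by
    refine hY Y inferInstance inf_le_left ?_
    rcases hminL (Y ⊓ L) inferInstance
      (le_inf (le_inf (hEK.trans hKA) (Subgroup.normal_le_normalCore.2 hEW)) hEL.le) inf_le_right with h1 | h1
    · exact h1
    · have h2 := inf_eq_right.1 h1
      exact absurd (h2.trans (inf_le_right.trans W.normalCore_le)) hLnotW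
  -- `Q` acts trivially
  have hQK : Q ≤ K := by
    haveI hQn : (Q.subgroupOf W).Normal := Subgroup.normal_in_normalizer
    letI : Fintype (Q.subgroupOf W) := Fintype.ofFinite _
    have hQA : Q ≤ A := sup_le hR.le (hEK.trans hKA)
    have hterm : ∀ n : Q.subgroupOf W, χW n = if (((n : W) : G) ∈ K) then (χ : G → ℂ) 1 else 0 := by
      intro n
      have hn : ((n : W) : G) ∈ Q := Subgroup.mem_subgroupOf.1 n.2
      split_ifs with h
      · exact (hK _).1 h
      · by_contra hne
        apply h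
        apply hYK
        refine Subgroup.mem_inf.2 ⟨hQA hn, ?_⟩
        intro y
        have := hvan _ (n : W).2 hne y⁻¹
        simpa using this
    have hsum : ∑ n : Q.subgroupOf W, χW n =
        ((Finset.univ.filter (fun n : Q.subgroupOf W => (((n : W) : G) ∈ K))).card : ℂ) *
          (χ : G → ℂ) 1 := by
      rw [Finset.sum_congr rfl fun n _ => hterm n, Finset.sum_ite, Finset.sum_const,
        Finset.sum_const_zero, add_zero, nsmul_eq_mul]
    have hcard : ((Finset.univ.filter (fun n : Q.subgroupOf W => (((n : W) : G) ∈ K))).card : ℂ) ≠ 0 := by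
      apply Nat.cast_ne_zero.2
      apply Finset.card_ne_zero.2
      exact ⟨1, Finset.mem_filter.2 ⟨Finset.mem_univ _, one_mem _⟩⟩
    have hconst : classInner (fun n : Q.subgroupOf W => χW n) (fun _ => (1 : ℂ)) ≠ 0 := by
      rw [classInner_def]
      simp only [map_one, mul_one]
      rw [hsum]
      exact mul_ne_zero (inv_ne_zero (Nat.cast_ne_zero.2 Nat.card_pos.ne')) (mul_ne_zero hcard hχ1)
    have htriv := Cfsg.Agent.Lib.BlockT.Inflate.trivial_of_constituent_one hQn hχW hconst
    intro x hx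
    rw [hK]
    exact htriv ⟨⟨x, hQW hx⟩, Subgroup.mem_subgroupOf.2 hx⟩
  -- conclusion
  have hRE' : R ≤ E := by
    intro x hx
    have hker' := hker ψ₀ hψ₀ hψ₀L
    rw [hker']
    have h1 : (ψ₀ : G → ℂ) x = (χ : G → ℂ) x := congrFun (hall ψ₀ hψ₀) ⟨x, hRW hx⟩
    have h2 : (ψ₀ : G → ℂ) 1 = (χ : G → ℂ) 1 := congrFun (hall ψ₀ hψ₀) 1
    rw [h1, h2]
    exact (hK x).1 (hQK (mem_sup_left hx))
  have hQE : Q = E := sup_eq_right.2 hRE'
  apply hRE
  have hWtop : W = ⊤ := by
    rw [hW, hQE]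
    exact normalizer_eq_top E
  rw [hWtop]
  exact le_top

end Cfsg.Agent.Lib.CharDeg.BrolineMain
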