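import Mathlib
import Cfsg.Agent.Lib.CharDeg.BrolineMain
import Cfsg.Agent.Lib.Core.Basic

/-!
# The Broline–Garrison theorem
-/

set_option autoImplicit false

namespace Cfsg.Agent.Lib.CharDeg.BrolineFinal

open Cfsg Subgroup
open scoped commutatorElement
open Cfsg.Agent.Lib.CharDeg.BrolineGroup Cfsg.Agent.Lib.CharDeg.BrolineMain

variable {G : Type*} [Group G] [Finite G]

/-- The choice of `E` and `L`. -/
theorem exists_E_L {A K : Subgroup G} [hKn : K.Normal] (hbot : ¬ NilMod A ⊥) (hK : NilMod A K) :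
    ∃ E L : Subgroup G, E.Normal ∧ L.Normal ∧ E < L ∧ L ≤ K ∧ ¬ NilMod A E ∧
      (∀ F : Subgroup G, F.Normal → E < F → F ≤ K → NilMod A F) ∧
      (∀ F : Subgroup G, F.Normal → E ≤ F → F ≤ L → F = E ∨ F = L) := by
  have hSne : ({F : Subgroup G | F.Normal ∧ F ≤ K ∧ ¬ NilMod A F}).Nonempty :=
    ⟨⊥, inferInstance, bot_le, hbot⟩
  obtain ⟨E, hE⟩ := (Set.toFinite _).exists_maximal hSne
  obtain ⟨hEn, hEK, hEnil⟩ := hE.prop
  have hEK' : E < K := by
    refine lt_of_le_of_ne hEK ?_
    rintro rfl
    exact hEnil hK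
  have hTne : ({F : Subgroup G | F.Normal ∧ E < F ∧ F ≤ K}).Nonempty := ⟨K, hKn, hEK', le_rfl⟩
  obtain ⟨L, hL⟩ := (Set.toFinite _).exists_minimal hTne
  obtain ⟨hLn, hEL, hLK⟩ := hL.prop
  refine ⟨E, L, hEn, hLn, hEL, hLK, hEnil, ?_, ?_⟩
  · intro F hFn hEF hFK
    by_contra hnil
    have := hE.le_of_ge (y := F) ⟨hFn, hFK, hnil⟩ hEF.le
    exact absurd this (not_le_of_gt hEF)
  · intro F hFn hEF hFL
    by_cases h : F = E
    · exact Or.inl h
    · right
      have hlt : E < F := lt_of_le_of_ne hEF (Ne.symm h)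
      exact le_antisymm hFL (hL.le_of_le (y := F) ⟨hFn, hlt, hFL.trans hLK⟩ hFL)

/-- In a solvable group, a perfect subgroup is trivial. -/
theorem eq_bot_of_perfect {X : Type*} [Group X] [Group.IsSolvable X] {H : Subgroup X}
    (h : H ≤ ⁅H, H⁆) : H = ⊥ := by
  obtain ⟨n, hn⟩ := (Group.isSolvable_def X).1 inferInstance
  have h1 : ∀ i, H ≤ derivedSeries X i := by
    intro i
    induction i with
    | zero => exact le_top
    | succ i ih =>
      rw [derivedSeries_succ]
      exact h.trans (Subgroup.commutator_mono ih ih)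
  exact le_bot_iff.1 (hn ▸ h1 n)

omit [Finite G] in
/-- Commutators with a join, modulo a normal subgroup. -/
theorem commutator_sup_le {Y K L E : Subgroup G} [hE : E.Normal] (h1 : ⁅Y, L⁆ ≤ E) (h2 : ⁅K, L⁆ ≤ E) :
    ⁅Y ⊔ K, L⁆ ≤ E := by
  set π := QuotientGroup.mk' E with hπ
  have hcomm : ∀ x l : G, ⁅x, l⁆ ∈ E ↔ π x * π l = π l * π x := by
    intro x l
    have h0 : ⁅x, l⁆ ∈ E ↔ π ⁅x, l⁆ = 1 := by
      rw [hπ, QuotientGroup.mk'_apply, QuotientGroup.eq_one_iff]
    rw [h0, map_commutatorElement]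
    exact commutatorElement_eq_one_iff_mul_comm
  have hC : Y ⊔ K ≤ (centralizer ((L.map π : Subgroup (G ⧸ E)) : Set (G ⧸ E))).comap π := by
    refine sup_le ?_ ?_
    · intro y hy
      rw [Subgroup.mem_comap, Subgroup.mem_centralizer_iff]
      rintro _ ⟨l, hl, rfl⟩
      exact ((hcomm y l).1 (h1 (Subgroup.commutator_mem_commutator hy hl))).symm
    · intro y hy
      rw [Subgroup.mem_comap, Subgroup.mem_centralizer_iff]
      rintro _ ⟨l, hl, rfl⟩
      exact ((hcomm y l).1 (h2 (Subgroup.commutator_mem_commutator hy hl))).symm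
  rw [Subgroup.commutator_le]
  intro x hx l hl
  rw [hcomm]
  have h3 := hC hx
  rw [Subgroup.mem_comap, Subgroup.mem_centralizer_iff] at h3
  exact (h3 (π l) (Subgroup.mem_map_of_mem π hl)).symm

/-- The two cases combined. -/
theorem broline_garrison (χ : IrrCharacter G) (K : Subgroup G) [hKn : K.Normal]
    (hK : ∀ g : G, g ∈ K ↔ (χ : G → ℂ) g = (χ : G → ℂ) 1)
    (h : ¬ K ≤ fittingSubgroup G ∨ (K = fittingSubgroup G ∧ Group.IsSolvable (G ⧸ K) ∧ K ≠ ⊤)) :
    ∃ ψ : IrrCharacter G, charDegree (χ : G → ℂ) < charDegree (ψ : G → ℂ) ∧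
      ∃ D : Subgroup G, (∀ g : G, g ∈ D ↔ (ψ : G → ℂ) g = (ψ : G → ℂ) 1) ∧ D < K := by
  classical
  cases nonempty_fintype G
  have hleF : ∀ N : Subgroup G, N.Normal → NilMod N ⊥ → N ≤ fittingSubgroup G := by
    intro N hN hnil
    exact le_sSup ⟨hN, nilMod_bot_iff.1 hnil⟩
  rcases h with h | ⟨hKF, hsolv, hKtop⟩
  · -- first case
    have hbot : ¬ NilMod K ⊥ := fun hn => h (hleF K hKn hn)
    obtain ⟨E, L, hEn, hLn, hEL, hLK, hE, hmaxE, hminL⟩ := exists_E_L hbot (nilMod_self K)
    exact main_lemma χ K K E L hK le_rfl hEL hLK hE hmaxE hminL (fun Y _ hYK _ => hYK)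
  · -- second case
    have hTne : ({N : Subgroup G | N.Normal ∧ K < N}).Nonempty :=
      ⟨⊤, inferInstance, lt_top_iff_ne_top.2 hKtop⟩
    obtain ⟨N, hN⟩ := (Set.toFinite _).exists_minimal hTne
    obtain ⟨hNn, hKN⟩ := hN.prop
    have hNmin : ∀ X : Subgroup G, X.Normal → K ≤ X → X ≤ N → X = K ∨ X = N := by
      intro X hXn hKX hXN
      by_cases hXK : X = K
      · exact Or.inl hXK
      · right
        have hlt : K < X := lt_of_le_of_ne hKX (Ne.symm hXK)
        exact le_antisymm hXN (hN.le_of_le (y := X) ⟨hXn, hlt⟩ hXN)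
    have hbot : ¬ NilMod N ⊥ := by
      intro hn
      have h1 := hleF N hNn hn
      rw [← hKF] at h1
      exact absurd h1 (not_le_of_gt hKN)
    have hNK : NilMod N K := by
      refine ⟨1, ?_⟩
      rw [Subgroup.lowerCentralSeries_succ, Subgroup.lowerCentralSeries_zero]
      have hXn : (⁅N, N⁆ ⊔ K).Normal := inferInstance
      rcases hNmin (⁅N, N⁆ ⊔ K) hXn le_sup_right
        (sup_le (Subgroup.commutator_le_left _ _) hKN.le) with h1 | h1
      · exact sup_eq_right.1 h1
      · exfalso
        set π := QuotientGroup.mk' K with hπ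
        have h2 : N.map π ≤ ⁅N.map π, N.map π⁆ := by
          rw [← Subgroup.map_commutator]
          calc N.map π = (⁅N, N⁆ ⊔ K).map π := by rw [h1]
            _ = ⁅N, N⁆.map π := by
              rw [Subgroup.map_sup]
              have : K.map π = ⊥ := by
                rw [Subgroup.map_eq_bot_iff, QuotientGroup.ker_mk']
              rw [this, sup_bot_eq]
            _ ≤ _ := le_rfl
        have h3 := eq_bot_of_perfect h2
        rw [Subgroup.map_eq_bot_iff, QuotientGroup.ker_mk'] at h3
        exact absurd h3 (not_le_of_gt hKN)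
    obtain ⟨E, L, hEn, hLn, hEL, hLK, hE, hmaxE, hminL⟩ := exists_E_L hbot hNK
    have hNL : NilMod N L := hmaxE L hLn hEL hLK
    refine main_lemma χ K N E L hK hKN.le hEL hLK hE hmaxE hminL ?_
    intro Y hYn hYN hYL
    have hXn : (Y ⊔ K).Normal := inferInstance
    rcases hNmin (Y ⊔ K) hXn le_sup_right (sup_le hYN hKN.le) with h1 | h1
    · exact sup_eq_right.1 h1
    · exfalso
      set π := QuotientGroup.mk' E with hπ
      -- `K` centralizes `L/E`
      have hKL : ⁅K, L⁆ ≤ E := by
        have hXn' : (⁅K, L⁆ ⊔ E).Normal := inferInstance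
        rcases hminL (⁅K, L⁆ ⊔ E) hXn' le_sup_right
          (sup_le (Subgroup.commutator_le_right _ _) hEL.le) with h2 | h2
        · exact sup_eq_right.1 h2
        · exfalso
          have hF : Group.IsNilpotent (fittingSubgroup G) :=
            Cfsg.Agent.Lib.Core.Basic.fittingSubgroup_isNilpotent
          rw [← hKF, isNilpotent_iff_lowerCentralSeries] at hF
          obtain ⟨c, hc⟩ := hF
          have hEq : L.map π = ⁅K.map π, L.map π⁆ := by
            rw [← Subgroup.map_commutator]
            calc L.map π = (⁅K, L⁆ ⊔ E).map π := by rw [h2]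
              _ = ⁅K, L⁆.map π := by
                rw [Subgroup.map_sup]
                have : E.map π = ⊥ := by
                  rw [Subgroup.map_eq_bot_iff, QuotientGroup.ker_mk']
                rw [this, sup_bot_eq]
          have hle : ∀ i, L.map π ≤ (K.map π).lowerCentralSeries i := by
            intro i
            induction i with
            | zero => exact Subgroup.map_mono hLK
            | succ i ih =>
              rw [Subgroup.lowerCentralSeries_succ, hEq, Subgroup.commutator_comm]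
              exact Subgroup.commutator_mono ih le_rfl
          have h3 := hle c
          rw [← map_lowerCentralSeries, hc, Subgroup.map_bot, le_bot_iff, Subgroup.map_eq_bot_iff,
            QuotientGroup.ker_mk'] at h3
          exact absurd h3 (not_le_of_gt hEL)
      -- `Y` centralizes `L/E`
      have hYLc : ⁅Y, L⁆ ≤ E := by
        rw [← hYL]
        exact le_inf (Subgroup.commutator_le_left _ _) (Subgroup.commutator_le_right _ _)
      apply hE
      refine hNL.of_commutator ?_
      rw [Subgroup.commutator_comm, ← h1]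
      exact commutator_sup_le hYLc hKL

end Cfsg.Agent.Lib.CharDeg.BrolineFinal
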