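import Mathlib
import Cfsg.Agent.Lib.Char.Induced
import Cfsg.Agent.Lib.Char.Complete
import Cfsg.Agent.Lib.Char.Conj
import Cfsg.Agent.Lib.Char.Clifford

/-!
# The inner product form of induction from a subgroup with a trivial-intersection singular part

`C ≤ N ≤ G`, with `N` normalizing `C`, and a set `K` such that a `G`-conjugate of a point of `C ∖ K`
lying in `C ∖ K` comes from `N`.  Functions on `C` vanishing on `K` are then induced isometrically
up to the form `B`.
-/

set_option autoImplicit false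
set_option linter.unusedSectionVars false

namespace Cfsg.Agent.Lib.CharDeg.TIForm

open Cfsg Cfsg.Agent.Lib.Char.Basic Cfsg.Agent.Lib.Char.Ortho Cfsg.Agent.Lib.Char.Induced
open Cfsg.Agent.Lib.Char.Complete Cfsg.Agent.Lib.Char.Conj
open scoped ComplexConjugate

universe u

variable {G : Type u} [Group G] [Fintype G]

section Act

variable (C : Subgroup G)

/-- Conjugate of a function on `C`. -/
noncomputable def act (t : G) (g : C → ℂ) : C → ℂ := fun y => extendByZero C g (t⁻¹ * y * t)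

theorem act_sub (t : G) (f g : C → ℂ) : act C t (f - g) = act C t f - act C t g := by
  funext y
  simp only [act, extendByZero_sub, Pi.sub_apply]

/-- Conjugation by an element of the normalizer, as an automorphism. -/
def cj (t : G) (ht : t ∈ Subgroup.normalizer (C : Set G)) : C ≃* C where
  toFun y := ⟨t⁻¹ * y * t, by
    have := (Subgroup.mem_normalizer_iff.mp (Subgroup.inv_mem _ ht) (y : G)).mp y.2
    simpa using this⟩
  invFun y := ⟨t * y * t⁻¹, (Subgroup.mem_normalizer_iff.mp ht (y : G)).mp y.2⟩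
  left_inv y := Subtype.ext (by simp [mul_assoc])
  right_inv y := Subtype.ext (by simp [mul_assoc])
  map_mul' a b := Subtype.ext (by simp [mul_assoc])

@[simp] theorem coe_cj (t : G) (ht : t ∈ Subgroup.normalizer (C : Set G)) (y : C) :
    (cj C t ht y : G) = t⁻¹ * y * t := rfl

theorem act_eq_comp (t : G) (ht : t ∈ Subgroup.normalizer (C : Set G)) (g : C → ℂ) :
    act C t g = g ∘ cj C t ht := by
  funext y
  change extendByZero C g (t⁻¹ * y * t) = g (cj C t ht y)
  have hm : t⁻¹ * (y : G) * t ∈ C := (cj C t ht y).2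
  rw [extendByZero_of_mem C g hm]
  rfl

theorem isIrr_act (t : G) (ht : t ∈ Subgroup.normalizer (C : Set G)) {g : C → ℂ}
    (hg : IsIrrCharacter C g) : IsIrrCharacter C (act C t g) := by
  rw [act_eq_comp C t ht]
  exact isIrrCharacter_comp_mulEquiv _ hg

theorem act_act (t₁ t₂ : G) (ht₁ : t₁ ∈ Subgroup.normalizer (C : Set G)) (g : C → ℂ) :
    act C t₁ (act C t₂ g) = act C (t₁ * t₂) g := by
  funext y
  change extendByZero C (act C t₂ g) (t₁⁻¹ * y * t₁) = extendByZero C g ((t₁ * t₂)⁻¹ * y * (t₁ * t₂))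
  have hm : t₁⁻¹ * (y : G) * t₁ ∈ C := (cj C t₁ ht₁ y).2
  rw [extendByZero_of_mem C _ hm]
  change extendByZero C g (t₂⁻¹ * (t₁⁻¹ * y * t₁) * t₂) = _
  congr 1
  group

theorem act_one (g : C → ℂ) : act C 1 g = g := by
  funext y
  change extendByZero C g (1⁻¹ * y * 1) = g y
  simp only [inv_one, one_mul, mul_one]
  exact extendByZero_coe C g y

theorem act_of_mem {g : C → ℂ} (hg : IsClassFunction C g) {t : G} (ht : t ∈ C) : act C t g = g := by
  funext y
  change extendByZero C g (t⁻¹ * y * t) = g y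
  have hm : t⁻¹ * y * t ∈ C := C.mul_mem (C.mul_mem (C.inv_mem ht) y.2) ht
  rw [extendByZero_of_mem C g hm]
  have := hg y (⟨t, ht⟩ : C)⁻¹
  convert this using 2
  apply Subtype.ext
  simp

/-- The action of the normalizer on restrictions. -/
theorem classInner_act_right [Fintype C] (t : G) (ht : t ∈ Subgroup.normalizer (C : Set G))
    {ψ : G → ℂ} (hψ : IsClassFunction G ψ) (g : C → ℂ) :
    classInner (fun y : C => ψ y) (act C t g) = classInner (fun y : C => ψ y) g := by
  rw [act_eq_comp C t ht]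
  have h1 : (fun y : C => ψ y) = (fun y : C => ψ y) ∘ cj C t ht := by
    funext y
    have := hψ y t⁻¹
    simp only [Function.comp, coe_cj]
    rw [inv_inv] at this
    exact this.symm
  conv_lhs => rw [h1]
  exact classInner_comp_mulEquiv _ _ _

end Act

section Form

variable (C N : Subgroup G) [Fintype C] [Fintype N]

/-- The form. -/
noncomputable def B (f g : C → ℂ) : ℂ := (Nat.card C : ℂ)⁻¹ * ∑ t : N, classInner f (act C t g)

theorem B_sub_left (f₁ f₂ g : C → ℂ) : B C N (f₁ - f₂) g = B C N f₁ g - B C N f₂ g := by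
  simp only [B, classInner_sub_left, Finset.sum_sub_distrib, mul_sub]

theorem B_sub_right (f g₁ g₂ : C → ℂ) : B C N f (g₁ - g₂) = B C N f g₁ - B C N f g₂ := by
  simp only [B, act_sub, classInner_sub_right, Finset.sum_sub_distrib, mul_sub]

/-- Values of an induced function on the nonsingular part. -/
theorem indFun_apply_of_sing (K : Set G)
    (hS : ∀ y ∈ C, y ∉ K → ∀ t : G, t⁻¹ * y * t ∈ C → t⁻¹ * y * t ∉ K → t ∈ N)
    (g : C → ℂ) (hg : ∀ y : C, (y : G) ∈ K → g y = 0) (y : C) (hy : (y : G) ∉ K) :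
    indFun C g y = (Nat.card C : ℂ)⁻¹ * ∑ t : N, act C t g y := by
  classical
  rw [indFun_apply]
  congr 1
  have h1 : ∑ t : G, extendByZero C g (t⁻¹ * y * t) =
      ∑ t ∈ Finset.univ.filter (· ∈ N), extendByZero C g (t⁻¹ * y * t) := by
    symm
    apply Finset.sum_subset (Finset.subset_univ _)
    intro t _ ht
    have htN : t ∉ N := by simpa using ht
    by_cases hm : t⁻¹ * y * t ∈ C
    · have hK : t⁻¹ * y * t ∈ K := by
        by_contra hK
        exact htN (hS y y.2 hy t hm hK)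
      rw [extendByZero_of_mem C g hm]
      exact hg ⟨_, hm⟩ hK
    · exact extendByZero_of_not_mem C g hm
  rw [h1, Finset.sum_subtype (p := (· ∈ N)) _ (by simp)]
  rfl

/-- **The induced functions are isometric up to the form `B`.** -/
theorem classInner_ind_ind (K : Set G)
    (hS : ∀ y ∈ C, y ∉ K → ∀ t : G, t⁻¹ * y * t ∈ C → t⁻¹ * y * t ∉ K → t ∈ N)
    (f g : C → ℂ) (hf : ∀ y : C, (y : G) ∈ K → f y = 0) (hg : ∀ y : C, (y : G) ∈ K → g y = 0) :
    classInner (indFun C f) (indFun C g) = B C N f g := by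
  classical
  rw [classInner_indFun_left C f _ (isClassFunction_indFun C g), B]
  simp only [classInner_subgroup_eq]
  congr 1
  simp_rw [Finset.mul_sum]
  rw [Finset.sum_comm]
  refine Finset.sum_congr rfl fun y _ => ?_
  by_cases hy : (y : G) ∈ K
  · simp [hf y hy]
  · rw [indFun_apply_of_sing C N K hS g hg y hy, map_mul, map_inv₀, Complex.conj_natCast, map_sum,
      Finset.mul_sum, Finset.mul_sum]
    refine Finset.sum_congr rfl fun t _ => ?_
    ring

end Form

section Conjugacy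

variable (C N : Subgroup G) [Fintype C] [Fintype N]

/-- Two functions are `N`-conjugate. -/
def Cg (ρ₁ ρ₂ : C → ℂ) : Prop := ∃ t : N, act C t ρ₂ = ρ₁

variable {C N}
variable (hCN : C ≤ N) (hN : N ≤ Subgroup.normalizer (C : Set G))
include hN

theorem Cg.symm {ρ₁ ρ₂ : C → ℂ} (h : Cg C N ρ₁ ρ₂) : Cg C N ρ₂ ρ₁ := by
  obtain ⟨t, rfl⟩ := h
  refine ⟨t⁻¹, ?_⟩
  rw [act_act C _ _ (hN t⁻¹.2)]
  simp [act_one]

theorem Cg.trans {ρ₁ ρ₂ ρ₃ : C → ℂ} (h : Cg C N ρ₁ ρ₂) (h' : Cg C N ρ₂ ρ₃) : Cg C N ρ₁ ρ₃ := by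
  obtain ⟨t, rfl⟩ := h
  obtain ⟨t', rfl⟩ := h'
  refine ⟨t * t', ?_⟩
  rw [act_act C _ _ (hN t.2)]
  simp

omit hN in
theorem Cg.refl (ρ : C → ℂ) : Cg C N ρ ρ := ⟨1, by simp [act_one]⟩

include hCN

/-- The number of elements conjugating `ρ₂` to `ρ₁`. -/
theorem card_filter_act {ρ₁ ρ₂ : C → ℂ} (hcl : IsClassFunction C ρ₂)
    (hfree : ∀ t : N, act C t ρ₂ = ρ₂ → (t : G) ∈ C) (h : Cg C N ρ₁ ρ₂) [DecidableEq (C → ℂ)] :
    (Finset.univ.filter fun t : N => act C t ρ₂ = ρ₁).card = Nat.card C := by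
  classical
  obtain ⟨t₀, rfl⟩ := h
  rw [Nat.card_eq_fintype_card, ← Finset.card_univ]
  symm
  refine Finset.card_bij (fun c _ => t₀ * ⟨(c : G), hCN c.2⟩) ?_ ?_ ?_
  · intro c _
    simp only [Finset.mem_filter, Finset.mem_univ, true_and]
    simp only [Subgroup.coe_mul]
    rw [← act_act C _ _ (hN t₀.2), act_of_mem C hcl c.2]
  · intro a _ b _ hab
    have := mul_left_cancel hab
    exact Subtype.ext (congrArg (fun z : N => (z : G)) this)
  · intro t ht
    simp only [Finset.mem_filter, Finset.mem_univ, true_and] at ht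
    have h1 : act C ((t₀⁻¹ * t : N) : G) ρ₂ = ρ₂ := by
      simp only [Subgroup.coe_mul]
      rw [← act_act C _ _ (hN t₀⁻¹.2), ht, act_act C _ _ (hN t₀⁻¹.2)]
      simp [act_one]
    refine ⟨⟨_, hfree _ h1⟩, Finset.mem_univ _, ?_⟩
    apply Subtype.ext
    simp

theorem B_eq_one {ρ₁ ρ₂ : C → ℂ} (h₁ : IsIrrCharacter C ρ₁) (h₂ : IsIrrCharacter C ρ₂)
    (hfree : ∀ t : N, act C t ρ₂ = ρ₂ → (t : G) ∈ C) (h : Cg C N ρ₁ ρ₂) :
    B C N ρ₁ ρ₂ = 1 := by
  classical
  have h3 : ∀ t : N, classInner ρ₁ (act C t ρ₂) = if act C t ρ₂ = ρ₁ then 1 else 0 := by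
    intro t
    by_cases he : act C t ρ₂ = ρ₁
    · rw [if_pos he, he, classInner_self_of_isIrr h₁]
    · rw [if_neg he]
      exact classInner_eq_zero_of_isIrr_of_ne h₁ (isIrr_act C t (hN t.2) h₂) (Ne.symm he)
  rw [B, Finset.sum_congr rfl (fun t _ => h3 t), Finset.sum_boole,
    card_filter_act hCN hN (isClassFunction_of_isIrrCharacter h₂) hfree h]
  exact inv_mul_cancel₀ (by exact_mod_cast Nat.card_pos.ne')

omit hCN in
theorem B_eq_zero {ρ₁ ρ₂ : C → ℂ} (h₁ : IsIrrCharacter C ρ₁) (h₂ : IsIrrCharacter C ρ₂)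
    (h : ¬ Cg C N ρ₁ ρ₂) : B C N ρ₁ ρ₂ = 0 := by
  rw [B]
  rw [Finset.sum_eq_zero, mul_zero]
  intro t _
  exact classInner_eq_zero_of_isIrr_of_ne h₁ (isIrr_act C t (hN t.2) h₂)
    (fun he => h ⟨t, he.symm⟩)

omit hCN in
/-- The multiplicities are constant on conjugates. -/
theorem classInner_eq_of_Cg {ψ : G → ℂ} (hψ : IsClassFunction G ψ) {ρ₁ ρ₂ : C → ℂ}
    (h : Cg C N ρ₁ ρ₂) :
    classInner (fun y : C => ψ y) ρ₁ = classInner (fun y : C => ψ y) ρ₂ := by
  obtain ⟨t, rfl⟩ := h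
  exact classInner_act_right C t (hN t.2) hψ ρ₂

/-- The number of members of an injective family conjugate to a given character. -/
theorem card_filter_Cg_mul_le {ι : Type*} (Ω : Finset ι) (ρ : ι → C → ℂ)
    (hinj : Set.InjOn ρ Ω) (hcl : ∀ s ∈ Ω, IsClassFunction C (ρ s))
    (hfree : ∀ s ∈ Ω, ∀ t : N, act C t (ρ s) = ρ s → (t : G) ∈ C) (ρ₀ : C → ℂ)
    [DecidablePred fun s => Cg C N ρ₀ (ρ s)] :
    (Ω.filter fun s => Cg C N ρ₀ (ρ s)).card * Nat.card C ≤ Nat.card N := by
  classical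
  have h1 : ∀ s ∈ Ω.filter (fun s => Cg C N ρ₀ (ρ s)),
      Nat.card C = (Finset.univ.filter fun t : N => act C t (ρ s) = ρ₀).card := by
    intro s hs
    rw [Finset.mem_filter] at hs
    exact (card_filter_act hCN hN (hcl s hs.1) (hfree s hs.1) hs.2).symm
  have h2 : (Ω.filter fun s => Cg C N ρ₀ (ρ s)).card * Nat.card C =
      ∑ s ∈ Ω.filter (fun s => Cg C N ρ₀ (ρ s)),
        (Finset.univ.filter fun t : N => act C t (ρ s) = ρ₀).card := by
    rw [Finset.card_eq_sum_ones, Finset.sum_mul, one_mul]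
    exact Finset.sum_congr rfl h1
  rw [h2]
  simp only [Finset.card_filter]
  rw [Finset.sum_comm, Nat.card_eq_fintype_card, ← Finset.card_univ, Finset.card_eq_sum_ones]
  refine Finset.sum_le_sum fun t _ => ?_
  rw [← Finset.card_filter]
  rw [Finset.card_le_one]
  intro a ha b hb
  simp only [Finset.mem_filter] at ha hb
  have hinv : ∀ g : C → ℂ, act C (t⁻¹ : N) (act C t g) = g := by
    intro g
    rw [act_act C _ _ (hN t⁻¹.2)]
    simp [act_one]
  apply hinj (Finset.mem_coe.mpr ha.1.1) (Finset.mem_coe.mpr hb.1.1)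
  rw [← hinv (ρ a), ← hinv (ρ b), ha.2, hb.2]

end Conjugacy

end Cfsg.Agent.Lib.CharDeg.TIForm
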