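import Mathlib
import Cfsg.Agent.Lib.CharDeg.TIForm
import Cfsg.Agent.Lib.Char.Burnside

/-!
# Multiplicity patterns for families of characters of `C`

Using the form `B` of `TIForm`: a constituent `ψ` of small degree meets a family of characters
in a single `N`-orbit, and it then has no `C`-fixed vector.
-/

set_option autoImplicit false
set_option linter.unusedSectionVars false

namespace Cfsg.Agent.Lib.CharDeg.TIPattern

open Cfsg Cfsg.Agent.Lib.Char.Basic Cfsg.Agent.Lib.Char.Ortho Cfsg.Agent.Lib.Char.Induced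
open Cfsg.Agent.Lib.Char.Complete Cfsg.Agent.Lib.CharDeg.TIForm
open scoped ComplexConjugate

universe u

variable {G : Type u} [Group G] [Fintype G]

/-- A Cauchy--Schwarz inequality for an irreducible character. -/
theorem cs_irr {ψ X : G → ℂ} (hψ : IsIrrCharacter G ψ) {c : ℕ} (h : classInner ψ X = c) :
    classInner (X - (c : ℂ) • ψ) (X - (c : ℂ) • ψ) = classInner X X - (c : ℂ) ^ 2 := by
  have h1 : classInner X ψ = c := by
    rw [← classInner_conj, h, Complex.conj_natCast]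
  rw [classInner_sub_left, classInner_sub_right, classInner_sub_right, classInner_smul_left,
    classInner_smul_right, classInner_smul_right, classInner_smul_left,
    classInner_self_of_isIrr hψ, h, h1, Complex.conj_natCast]
  ring

theorem nat_sq_le_of_classInner {ψ X : G → ℂ} (hψ : IsIrrCharacter G ψ) {c n : ℕ}
    (h : classInner ψ X = c) (hX : classInner X X = n) : c ^ 2 ≤ n := by
  have h1 := cs_irr hψ h
  have h2 := classInner_self_re_nonneg (X - (c : ℂ) • ψ)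
  rw [h1, hX] at h2
  have h3 : ((n : ℂ) - (c : ℂ) ^ 2).re = (n : ℝ) - (c : ℝ) ^ 2 := by
    have : (n : ℂ) - (c : ℂ) ^ 2 = (((n : ℝ) - (c : ℝ) ^ 2 : ℝ) : ℂ) := by push_cast; ring
    rw [this, Complex.ofReal_re]
  rw [h3] at h2
  have h4 : (c : ℝ) ^ 2 ≤ n := by linarith
  exact_mod_cast h4

theorem eq_smul_of_classInner {ψ X : G → ℂ} (hψ : IsIrrCharacter G ψ) {c : ℕ}
    (h : classInner ψ X = c) (hX : classInner X X = ((c ^ 2 : ℕ) : ℂ)) : X = (c : ℂ) • ψ := by
  have h1 := cs_irr hψ h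
  rw [hX] at h1
  have h2 : classInner (X - (c : ℂ) • ψ) (X - (c : ℂ) • ψ) = 0 := by
    rw [h1]; push_cast; ring
  exact sub_eq_zero.mp ((classInner_self_eq_zero_iff _).mp h2)

section Family

variable {C N : Subgroup G} [Fintype C] [Fintype N]
variable (hCN : C ≤ N) (hN : N ≤ Subgroup.normalizer (C : Set G))
variable {K : Set G}
  (hS : ∀ y ∈ C, y ∉ K → ∀ t : G, t⁻¹ * y * t ∈ C → t⁻¹ * y * t ∉ K → t ∈ N)
variable {e : ℕ} (he : Nat.card N = e * Nat.card C)

include hS in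
/-- Inner product of two differences. -/
theorem inner_diff (a b c d : C → ℂ) (hab : ∀ y : C, (y : G) ∈ K → a y = b y)
    (hcd : ∀ y : C, (y : G) ∈ K → c y = d y) :
    classInner (indFun C (a - b)) (indFun C (c - d)) =
      B C N a c - B C N a d - B C N b c + B C N b d := by
  rw [classInner_ind_ind C N K hS (a - b) (c - d)
    (fun y hy => by simp [hab y hy]) (fun y hy => by simp [hcd y hy]),
    B_sub_left, B_sub_right, B_sub_right]
  ring

theorem inner_psi_diff {ψ : G → ℂ} (hψ : IsClassFunction G ψ) (a b : C → ℂ) :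
    classInner ψ (indFun C (a - b)) =
      classInner (fun y : C => ψ y) a - classInner (fun y : C => ψ y) b := by
  rw [classInner_indFun_right C _ ψ hψ, classInner_sub_right]

theorem diff_one {a b : C → ℂ} (h : a 1 = b 1) : indFun C (a - b) 1 = 0 := by
  rw [indFun_one]
  simp [h]

variable {ι : Type*} {Ω : Finset ι} {ρ : ι → C → ℂ}
  (hirr : ∀ s ∈ Ω, IsIrrCharacter C (ρ s))
  (hfree : ∀ s ∈ Ω, ∀ t : N, act C t (ρ s) = ρ s → (t : G) ∈ C)
  (hinj : Set.InjOn ρ Ω)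
  (hK : ∀ s ∈ Ω, ∀ s' ∈ Ω, ∀ y : C, (y : G) ∈ K → ρ s y = ρ s' y)
  (h1K : (1 : G) ∈ K)

include hCN hN hfree hinj hirr he in
/-- The number of conjugates within a family. -/
theorem card_Cg_le (ρ₀ : C → ℂ) [DecidablePred fun s => Cg C N ρ₀ (ρ s)] :
    (Ω.filter fun s => Cg C N ρ₀ (ρ s)).card ≤ e := by
  have h := card_filter_Cg_mul_le hCN hN Ω ρ hinj
    (fun s hs => isClassFunction_of_isIrrCharacter (hirr s hs)) hfree ρ₀
  rw [he] at h
  exact Nat.le_of_mul_le_mul_right h Nat.card_pos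

include hCN hN hS hirr hfree hinj hK h1K he in
/-- **Pattern.** -/
theorem pattern {ψ : G → ℂ} (hψ : IsIrrCharacter G ψ) {s₀ : ι} (hs₀ : s₀ ∈ Ω)
    (hm : classInner (fun y : C => ψ y) (ρ s₀) ≠ 0)
    [DecidablePred fun s => classInner (fun y : C => ψ y) (ρ s) = 0]
    [∀ ρ₀, DecidablePred fun s => Cg C N ρ₀ (ρ s)]
    (hW : e < (Ω.filter fun s => classInner (fun y : C => ψ y) (ρ s) = 0).card) :
    ∀ s ∈ Ω, classInner (fun y : C => ψ y) (ρ s) = if Cg C N (ρ s₀) (ρ s) then 1 else 0 := by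
  classical
  set m : ι → ℂ := fun s => classInner (fun y : C => ψ y) (ρ s) with hmdef
  have hψc := isClassFunction_of_isIrrCharacter hψ
  have hψC : IsCharacter C (fun y : C => ψ y) :=
    isCharacter_restrict C (isCharacter_of_isIrrCharacter hψ)
  have hnat : ∀ s ∈ Ω, ∃ n : ℕ, m s = n := fun s hs =>
    exists_nat_classInner hψC (isCharacter_of_isIrrCharacter (hirr s hs))
  set W := Ω.filter fun s => m s = 0 with hWdef
  have hWne : W.Nonempty := Finset.card_pos.mp (by omega)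
  obtain ⟨w₁, hw₁⟩ := hWne
  have hw₁Ω : w₁ ∈ Ω := (Finset.mem_filter.mp hw₁).1
  have hw₁m : m w₁ = 0 := (Finset.mem_filter.mp hw₁).2
  have hB : ∀ a ∈ Ω, ∀ b ∈ Ω, B C N (ρ a) (ρ b) = if Cg C N (ρ a) (ρ b) then 1 else 0 := by
    intro a ha b hb
    split_ifs with h
    · exact B_eq_one hCN hN (hirr a ha) (hirr b hb) (hfree b hb) h
    · exact B_eq_zero hN (hirr a ha) (hirr b hb) h
  have hmC : ∀ a b, Cg C N (ρ a) (ρ b) → m a = m b := fun a b h =>
    classInner_eq_of_Cg hN hψc h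
  have hne0 : ∀ a b, m a ≠ m b → ¬ Cg C N (ρ a) (ρ b) := fun a b h h' => h (hmC a b h')
  have hdeg : ∀ a ∈ Ω, ∀ b ∈ Ω, indFun C (ρ a - ρ b) 1 = 0 := fun a ha b hb =>
    diff_one (hK a ha b hb 1 h1K)
  -- multiplicities are one
  have hone : ∀ a ∈ Ω, m a ≠ 0 → m a = 1 := by
    intro a ha hma
    obtain ⟨n, hn⟩ := hnat a ha
    have h1 : classInner ψ (indFun C (ρ a - ρ w₁)) = (n : ℂ) := by
      rw [inner_psi_diff hψc]
      change m a - m w₁ = _
      rw [hw₁m, hn, sub_zero]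
    have h2 : classInner (indFun C (ρ a - ρ w₁)) (indFun C (ρ a - ρ w₁)) = ((2 : ℕ) : ℂ) := by
      rw [inner_diff hS _ _ _ _ (hK a ha w₁ hw₁Ω) (hK a ha w₁ hw₁Ω), hB a ha a ha, hB a ha w₁ hw₁Ω,
        hB w₁ hw₁Ω a ha, hB w₁ hw₁Ω w₁ hw₁Ω, if_pos (Cg.refl _), if_pos (Cg.refl _),
        if_neg (hne0 a w₁ (by rw [hw₁m]; exact hma)),
        if_neg (hne0 w₁ a (by rw [hw₁m]; exact Ne.symm hma))]
      norm_num
    have h3 := nat_sq_le_of_classInner hψ h1 h2
    have hn0 : n ≠ 0 := by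
      rintro rfl
      apply hma
      rw [hn]
      simp
    have hn1 : n = 1 := by nlinarith [Nat.pos_of_ne_zero hn0]
    rw [hn, hn1]
    simp
  -- a second element of `W`
  have hcard := card_Cg_le hCN hN he hirr hfree hinj (Ω := Ω) (ρ := ρ) (ρ w₁)
  obtain ⟨w₂, hw₂, hw₂C⟩ : ∃ w₂ ∈ W, ¬ Cg C N (ρ w₁) (ρ w₂) := by
    by_contra hcon
    push Not at hcon
    have : W ⊆ Ω.filter fun s => Cg C N (ρ w₁) (ρ s) := by
      intro s hs
      exact Finset.mem_filter.mpr ⟨(Finset.mem_filter.mp hs).1, hcon s hs⟩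
    have := Finset.card_le_card this
    omega
  have hw₂Ω : w₂ ∈ Ω := (Finset.mem_filter.mp hw₂).1
  have hw₂m : m w₂ = 0 := (Finset.mem_filter.mp hw₂).2
  -- only one orbit
  have horb : ∀ a ∈ Ω, m a ≠ 0 → Cg C N (ρ s₀) (ρ a) := by
    intro a ha hma
    by_contra hc
    have hc' : ¬ Cg C N (ρ a) (ρ s₀) := fun h => hc (h.symm hN)
    have h1s := hone s₀ hs₀ hm
    have h1a := hone a ha hma
    set F₁ := indFun C (ρ s₀ - ρ w₁) with hF₁
    set F₂ := indFun C (ρ a - ρ w₂) with hF₂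
    have e11 : classInner F₁ F₁ = 2 := by
      rw [hF₁, inner_diff hS _ _ _ _ (hK s₀ hs₀ w₁ hw₁Ω) (hK s₀ hs₀ w₁ hw₁Ω), hB s₀ hs₀ s₀ hs₀,
        hB s₀ hs₀ w₁ hw₁Ω, hB w₁ hw₁Ω s₀ hs₀, hB w₁ hw₁Ω w₁ hw₁Ω, if_pos (Cg.refl _),
        if_pos (Cg.refl _), if_neg (hne0 s₀ w₁ (by rw [hw₁m]; exact hm)),
        if_neg (hne0 w₁ s₀ (by rw [hw₁m]; exact Ne.symm hm))]
      norm_num
    have e22 : classInner F₂ F₂ = 2 := by
      rw [hF₂, inner_diff hS _ _ _ _ (hK a ha w₂ hw₂Ω) (hK a ha w₂ hw₂Ω), hB a ha a ha,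
        hB a ha w₂ hw₂Ω, hB w₂ hw₂Ω a ha, hB w₂ hw₂Ω w₂ hw₂Ω, if_pos (Cg.refl _),
        if_pos (Cg.refl _), if_neg (hne0 a w₂ (by rw [hw₂m]; exact hma)),
        if_neg (hne0 w₂ a (by rw [hw₂m]; exact Ne.symm hma))]
      norm_num
    have e12 : classInner F₁ F₂ = 0 := by
      rw [hF₁, hF₂, inner_diff hS _ _ _ _ (hK s₀ hs₀ w₁ hw₁Ω) (hK a ha w₂ hw₂Ω), hB s₀ hs₀ a ha,
        hB s₀ hs₀ w₂ hw₂Ω, hB w₁ hw₁Ω a ha, hB w₁ hw₁Ω w₂ hw₂Ω,
        if_neg hc, if_neg (hne0 s₀ w₂ (by rw [hw₂m]; exact hm)),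
        if_neg (hne0 w₁ a (by rw [hw₁m]; exact Ne.symm hma)), if_neg hw₂C]
      norm_num
    have e21 : classInner F₂ F₁ = 0 := by
      rw [← classInner_conj, e12, map_zero]
    have hX : classInner (F₁ + F₂) (F₁ + F₂) = ((2 ^ 2 : ℕ) : ℂ) := by
      rw [classInner_add_left, classInner_add_right, classInner_add_right, e11, e22, e12, e21]
      norm_num
    have hc1 : classInner ψ (F₁ + F₂) = ((2 : ℕ) : ℂ) := by
      rw [classInner_add_right, hF₁, hF₂, inner_psi_diff hψc, inner_psi_diff hψc]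
      change (m s₀ - m w₁) + (m a - m w₂) = _
      rw [h1s, h1a, hw₁m, hw₂m]
      norm_num
    have hXe := eq_smul_of_classInner hψ hc1 hX
    have hv := congrFun hXe 1
    simp only [Pi.add_apply, Pi.smul_apply, smul_eq_mul] at hv
    rw [hF₁, hF₂, hdeg s₀ hs₀ w₁ hw₁Ω, hdeg a ha w₂ hw₂Ω, add_zero] at hv
    have hψ1 := irr_one_ne_zero hψ
    have h20 : ((2 : ℕ) : ℂ) ≠ 0 := by norm_num
    exact (mul_ne_zero h20 hψ1) hv.symm
  intro s hs
  by_cases hc : Cg C N (ρ s₀) (ρ s)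
  · rw [if_pos hc]
    change m s = 1
    rw [← hmC s₀ s hc]
    exact hone s₀ hs₀ hm
  · rw [if_neg hc]
    by_contra h0
    exact hc (horb s hs h0)

omit hCN hN hS he hirr hfree hinj hK in
theorem act_const (hN : N ≤ Subgroup.normalizer (C : Set G)) (t : N) :
    act C t (fun _ => (1 : ℂ)) = fun _ => 1 := by
  funext y
  have hm : (t : G)⁻¹ * (y : G) * t ∈ C := (cj C t (hN t.2) y).2
  change extendByZero C _ ((t : G)⁻¹ * y * t) = 1
  rw [extendByZero_of_mem C _ hm]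

include hCN hN hS hirr hfree hinj hK h1K he in
/-- **No fixed points.** -/
theorem mult_one_eq_zero {ψ : G → ℂ} (hψ : IsIrrCharacter G ψ) (hne : ψ ≠ fun _ => 1)
    {θ : C → ℂ} (hθ : IsIrrCharacter C θ) (hθ1 : θ ≠ fun _ => 1)
    (hθfree : ∀ t : N, act C t θ = θ → (t : G) ∈ C) (hθK : ∀ y : C, (y : G) ∈ K → θ y = 1)
    (hθm : classInner (fun y : C => ψ y) θ = 0)
    (hρ1 : ∀ s ∈ Ω, ρ s ≠ fun _ => 1) {s₀ : ι} (hs₀ : s₀ ∈ Ω)
    [∀ ρ₀, DecidablePred fun s => Cg C N ρ₀ (ρ s)]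
    (hpat : ∀ s ∈ Ω, classInner (fun y : C => ψ y) (ρ s) = if Cg C N (ρ s₀) (ρ s) then 1 else 0)
    (hbig : e * e ≤ (Ω.filter fun s => ¬ Cg C N θ (ρ s)).card) :
    classInner (fun y : C => ψ y) (fun _ => 1) = 0 := by
  classical
  have hψc := isClassFunction_of_isIrrCharacter hψ
  have hψC : IsCharacter C (fun y : C => ψ y) :=
    isCharacter_restrict C (isCharacter_of_isIrrCharacter hψ)
  have h1C : IsIrrCharacter C (fun _ => (1 : ℂ)) := Cfsg.Agent.Lib.Char.Burnside.isIrrCharacter_one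
  have h1Gi : IsIrrCharacter G (fun _ => (1 : ℂ)) := Cfsg.Agent.Lib.Char.Burnside.isIrrCharacter_one
  obtain ⟨k, hk⟩ := exists_nat_classInner hψC (isCharacter_of_isIrrCharacter h1C)
  by_contra hne0
  have hk0 : k ≠ 0 := by
    rintro rfl
    apply hne0
    rw [hk]
    simp
  have he0 : 0 < e := by
    rcases Nat.eq_zero_or_pos e with h0 | h0
    · rw [h0, zero_mul] at he
      have := Nat.card_pos (α := N)
      omega
    · exact h0
  -- conjugacy facts
  set c : ι → ι → ℂ := fun a b => if Cg C N (ρ a) (ρ b) then 1 else 0 with hcdef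
  have hB : ∀ a ∈ Ω, ∀ b ∈ Ω, B C N (ρ a) (ρ b) = c a b := by
    intro a ha b hb
    simp only [hcdef]
    split_ifs with h
    · exact B_eq_one hCN hN (hirr a ha) (hirr b hb) (hfree b hb) h
    · exact B_eq_zero hN (hirr a ha) (hirr b hb) h
  have hcsymm : ∀ a b, c a b = c b a := by
    intro a b
    simp only [hcdef]
    by_cases h : Cg C N (ρ a) (ρ b)
    · rw [if_pos h, if_pos (h.symm hN)]
    · rw [if_neg h, if_neg (fun h' => h (h'.symm hN))]
  have hc0 : c s₀ s₀ = 1 := by simp only [hcdef]; rw [if_pos (Cg.refl _)]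
  have hcreal : ∀ a b, conj (c a b) = c a b := by
    intro a b
    simp only [hcdef]
    split_ifs <;> simp
  have hm : ∀ s ∈ Ω, classInner (fun y : C => ψ y) (ρ s) = c s₀ s := hpat
  -- the constant character is not conjugate to anything in the family
  have hn1 : ∀ s ∈ Ω, ¬ Cg C N (fun _ => (1 : ℂ)) (ρ s) := by
    rintro s hs ⟨t, ht⟩
    apply hρ1 s hs
    have h3 : act C ((t⁻¹ : N) : G) (act C t (ρ s)) = ρ s := by
      rw [act_act C _ _ (hN t⁻¹.2)]
      simp [act_one]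
    rw [ht, act_const hN t⁻¹] at h3
    exact h3.symm
  have hθ10 : ¬ Cg C N θ (fun _ => (1 : ℂ)) := by
    rintro ⟨t, ht⟩
    rw [act_const hN t] at ht
    exact hθ1 ht.symm
  have hB1 : ∀ s ∈ Ω, B C N (fun _ => (1 : ℂ)) (ρ s) = 0 := fun s hs =>
    B_eq_zero hN h1C (hirr s hs) (hn1 s hs)
  have hBθθ : B C N θ θ = 1 := B_eq_one hCN hN hθ hθ hθfree (Cg.refl _)
  have hBθ1 : B C N θ (fun _ => (1 : ℂ)) = 0 := B_eq_zero hN hθ h1C hθ10
  have hB1θ : B C N (fun _ => (1 : ℂ)) θ = 0 :=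
    B_eq_zero hN h1C hθ (fun h => hθ10 (h.symm hN))
  have hB11 : B C N (fun _ => (1 : ℂ)) (fun _ => (1 : ℂ)) = e := by
    rw [B]
    have h3 : ∀ t : N, classInner (fun _ : C => (1 : ℂ)) (act C t (fun _ => (1 : ℂ))) = 1 := by
      intro t
      rw [act_const hN t]
      exact classInner_self_of_isIrr h1C
    rw [Finset.sum_congr rfl (fun t _ => h3 t)]
    simp only [Finset.sum_const, Finset.card_univ, nsmul_eq_mul, mul_one]
    rw [← Nat.card_eq_fintype_card, he]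
    push_cast
    have : (Nat.card C : ℂ) ≠ 0 := by exact_mod_cast Nat.card_pos.ne'
    field_simp
  -- `θ` is not conjugate to `ρ s₀`
  have hθs₀ : ¬ Cg C N θ (ρ s₀) := by
    intro h
    have h2 := classInner_eq_of_Cg hN hψc h
    rw [hθm, hm s₀ hs₀, hc0] at h2
    exact zero_ne_one h2
  -- the vectors
  let Ω' := Ω.filter fun s => ¬ Cg C N θ (ρ s)
  have hΩ'Ω : ∀ s ∈ Ω', s ∈ Ω := fun s hs => (Finset.mem_filter.mp hs).1
  let α : G → ℂ := indFun C (θ - fun _ => (1 : ℂ))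
  let one : G → ℂ := fun _ => 1
  let v : G → ℂ := α + one
  let F : ι → G → ℂ := fun s => indFun C (ρ s₀ - ρ s)
  let ee : ι → G → ℂ := fun s => ψ - F s
  let y : G → ℂ := ∑ s ∈ Ω', ee s
  have hαK : ∀ z : C, (z : G) ∈ K → θ z = (fun _ : C => (1 : ℂ)) z := fun z hz => hθK z hz
  -- inner products
  have h_αα : classInner α α = 1 + e := by
    change classInner (indFun C (θ - fun _ => (1 : ℂ))) (indFun C (θ - fun _ => (1 : ℂ))) = _
    rw [inner_diff hS _ _ _ _ hαK hαK, hBθθ, hBθ1, hB1θ, hB11]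
    ring
  have h_αone : classInner α one = -1 := by
    change classInner (indFun C (θ - fun _ => (1 : ℂ))) (fun _ => (1 : ℂ)) = _
    rw [classInner_indFun_left C _ _ (fun _ _ => rfl), classInner_sub_left,
      classInner_eq_zero_of_isIrr_of_ne hθ h1C hθ1, classInner_self_of_isIrr h1C]
    ring
  have h_oneα : classInner one α = -1 := by
    rw [← classInner_conj, h_αone]
    simp
  have h_oneone : classInner one one = 1 := classInner_self_of_isIrr h1Gi
  have h_vv : classInner v v = e := by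
    change classInner (α + one) (α + one) = _
    rw [classInner_add_left, classInner_add_right, classInner_add_right, h_αα, h_αone, h_oneα,
      h_oneone]
    ring
  have h_ψF : ∀ s ∈ Ω, classInner ψ (F s) = 1 - c s₀ s := by
    intro s hs
    change classInner ψ (indFun C (ρ s₀ - ρ s)) = _
    rw [inner_psi_diff hψc, hm s₀ hs₀, hm s hs, hc0]
  have h_Fψ : ∀ s ∈ Ω, classInner (F s) ψ = 1 - c s₀ s := by
    intro s hs
    rw [← classInner_conj, h_ψF s hs, map_sub, hcreal]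
    simp
  have h_FF : ∀ s ∈ Ω, ∀ s' ∈ Ω, classInner (F s) (F s') = 1 - c s₀ s' - c s s₀ + c s s' := by
    intro s hs s' hs'
    change classInner (indFun C (ρ s₀ - ρ s)) (indFun C (ρ s₀ - ρ s')) = _
    rw [inner_diff hS _ _ _ _ (hK s₀ hs₀ s hs) (hK s₀ hs₀ s' hs'), hB s₀ hs₀ s₀ hs₀,
      hB s₀ hs₀ s' hs', hB s hs s₀ hs₀, hB s hs s' hs', hc0]
  have h_ee : ∀ s ∈ Ω, ∀ s' ∈ Ω, classInner (ee s) (ee s') = c s s' := by
    intro s hs s' hs'
    change classInner (ψ - F s) (ψ - F s') = _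
    rw [classInner_sub_left, classInner_sub_right, classInner_sub_right,
      classInner_self_of_isIrr hψ, h_ψF s' hs', h_Fψ s hs, h_FF s hs s' hs', hcsymm s s₀]
    ring
  have h_αψ : classInner α ψ = -(k : ℂ) := by
    change classInner (indFun C (θ - fun _ => (1 : ℂ))) ψ = _
    rw [classInner_indFun_left C _ _ hψc, ← classInner_conj, classInner_sub_right, hθm, hk]
    simp
  have h_αF : ∀ s ∈ Ω', classInner α (F s) = 0 := by
    intro s hs
    have hsΩ := hΩ'Ω s hs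
    change classInner (indFun C (θ - fun _ => (1 : ℂ))) (indFun C (ρ s₀ - ρ s)) = _
    rw [inner_diff hS _ _ _ _ hαK (hK s₀ hs₀ s hsΩ),
      B_eq_zero hN hθ (hirr s₀ hs₀) hθs₀,
      B_eq_zero hN hθ (hirr s hsΩ) (Finset.mem_filter.mp hs).2, hB1 s₀ hs₀, hB1 s hsΩ]
    ring
  have h_oneψ : classInner one ψ = 0 :=
    classInner_eq_zero_of_isIrr_of_ne h1Gi hψ (Ne.symm hne)
  have h_oneF : ∀ s ∈ Ω, classInner one (F s) = 0 := by
    intro s hs
    change classInner (fun _ => (1 : ℂ)) (indFun C (ρ s₀ - ρ s)) = _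
    rw [classInner_indFun_right C _ _ (fun _ _ => rfl), classInner_sub_right,
      classInner_eq_zero_of_isIrr_of_ne h1C (hirr s₀ hs₀) (Ne.symm (hρ1 s₀ hs₀)),
      classInner_eq_zero_of_isIrr_of_ne h1C (hirr s hs) (Ne.symm (hρ1 s hs))]
    ring
  have h_ve : ∀ s ∈ Ω', classInner v (ee s) = -(k : ℂ) := by
    intro s hs
    change classInner (α + one) (ψ - F s) = _
    rw [classInner_add_left, classInner_sub_right, classInner_sub_right, h_αψ, h_αF s hs, h_oneψ,
      h_oneF s (hΩ'Ω s hs)]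
    ring
  set L := Ω'.card with hL
  have h_vy : classInner v y = -(L : ℂ) * k := by
    change classInner v (∑ s ∈ Ω', ee s) = _
    rw [classInner_sum_right, Finset.sum_congr rfl h_ve]
    simp only [Finset.sum_const, nsmul_eq_mul]
    ring
  have h_yv : classInner y v = -(L : ℂ) * k := by
    rw [← classInner_conj, h_vy]
    simp
  -- the norm of `y`
  let Y₀ : ℕ := ∑ s ∈ Ω', (Ω'.filter fun s' => Cg C N (ρ s) (ρ s')).card
  have h_yy : classInner y y = (Y₀ : ℂ) := by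
    change classInner (∑ s ∈ Ω', ee s) (∑ s ∈ Ω', ee s) = _
    rw [classInner_sum_left]
    simp only [Y₀, Nat.cast_sum]
    refine Finset.sum_congr rfl fun s hs => ?_
    rw [classInner_sum_right, Finset.sum_congr rfl
      (fun s' hs' => h_ee s (hΩ'Ω s hs) s' (hΩ'Ω s' hs'))]
    simp only [hcdef]
    rw [Finset.sum_boole]
  have hY₀ : Y₀ ≤ L * e := by
    simp only [Y₀]
    refine (Finset.sum_le_sum (g := fun _ => e) fun s _ => ?_).trans (by simp [hL])
    refine (Finset.card_le_card ?_).trans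
      (card_Cg_le hCN hN he hirr hfree hinj (Ω := Ω) (ρ := ρ) (ρ s))
    exact Finset.filter_subset_filter _ (Finset.filter_subset _ _)
  -- the vector `z`
  let z : G → ℂ := (e : ℂ) • v + (k : ℂ) • y
  have h_zz : classInner z z = (((e : ℤ) ^ 3 + (k : ℤ) ^ 2 * Y₀ - 2 * e * (k : ℤ) ^ 2 * L : ℤ) : ℂ) := by
    change classInner ((e : ℂ) • v + (k : ℂ) • y) ((e : ℂ) • v + (k : ℂ) • y) = _
    rw [classInner_add_left, classInner_add_right, classInner_add_right, classInner_smul_left,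
      classInner_smul_left, classInner_smul_right, classInner_smul_right, classInner_smul_left,
      classInner_smul_left, classInner_smul_right, classInner_smul_right, h_vv, h_vy, h_yv, h_yy,
      Complex.conj_natCast, Complex.conj_natCast]
    push_cast
    ring
  have hint : (e : ℤ) ^ 3 + (k : ℤ) ^ 2 * Y₀ - 2 * e * (k : ℤ) ^ 2 * L ≤ 0 := by
    have hLi : (e : ℤ) * e ≤ L := by exact_mod_cast hbig
    have hYi : (Y₀ : ℤ) ≤ L * e := by exact_mod_cast hY₀
    have hki : (1 : ℤ) ≤ (k : ℤ) ^ 2 := by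
      have : (1 : ℤ) ≤ k := by exact_mod_cast Nat.pos_of_ne_zero hk0
      nlinarith
    have hei : (0 : ℤ) < e := by exact_mod_cast he0
    have hLpos : (0 : ℤ) ≤ L := by positivity
    have h1 : (k : ℤ) ^ 2 * Y₀ ≤ (k : ℤ) ^ 2 * (L * e) :=
      mul_le_mul_of_nonneg_left hYi (by positivity)
    have h2 : (e : ℤ) * L ≤ (e : ℤ) * ((k : ℤ) ^ 2 * L) := by
      apply mul_le_mul_of_nonneg_left _ hei.le
      nlinarith
    have h3 : (e : ℤ) * ((e : ℤ) * e) ≤ (e : ℤ) * L := mul_le_mul_of_nonneg_left hLi hei.le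
    nlinarith
  have hnn := classInner_self_re_nonneg z
  rw [h_zz] at hnn
  have hnn' : (0 : ℝ) ≤ (((e : ℤ) ^ 3 + (k : ℤ) ^ 2 * Y₀ - 2 * e * (k : ℤ) ^ 2 * L : ℤ) : ℝ) := by
    rwa [Complex.intCast_re] at hnn
  have hnn'' : 0 ≤ (e : ℤ) ^ 3 + (k : ℤ) ^ 2 * Y₀ - 2 * e * (k : ℤ) ^ 2 * L := by
    exact_mod_cast hnn'
  have hzero : (e : ℤ) ^ 3 + (k : ℤ) ^ 2 * Y₀ - 2 * e * (k : ℤ) ^ 2 * L = 0 := le_antisymm hint hnn''
  rw [hzero] at h_zz
  have hz0 : z = 0 := (classInner_self_eq_zero_iff z).mp (by simpa using h_zz)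
  -- evaluate at the identity
  have hα1 : α 1 = 0 := diff_one (by
    have := hθK 1 h1K
    simpa using this)
  have hF1 : ∀ s ∈ Ω, F s 1 = 0 := fun s hs => diff_one (hK s₀ hs₀ s hs 1 h1K)
  have hy1 : y 1 = (L : ℂ) * ψ 1 := by
    change (∑ s ∈ Ω', ee s) 1 = _
    rw [Finset.sum_apply, Finset.sum_congr rfl (g := fun _ => ψ 1) (fun s hs => by
      change ψ 1 - F s 1 = ψ 1
      rw [hF1 s (hΩ'Ω s hs), sub_zero]),
      Finset.sum_const, nsmul_eq_mul]
  have hz1 := congrFun hz0 1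
  change (e : ℂ) • (α 1 + 1) + (k : ℂ) • y 1 = 0 at hz1
  rw [hα1, hy1] at hz1
  obtain ⟨d, hd⟩ := exists_pos_deg_of_isIrr hψ
  rw [hd.2] at hz1
  simp only [smul_eq_mul, zero_add, mul_one] at hz1
  have h4 : ((e + k * (L * d) : ℕ) : ℂ) = 0 := by
    push_cast
    exact hz1
  have h5 : e + k * (L * d) = 0 := by exact_mod_cast h4
  omega

end Family

end Cfsg.Agent.Lib.CharDeg.TIPattern
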