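import Mathlib
import Cfsg.Agent.Lib.CharDeg.TIPattern
import Cfsg.Agent.Lib.Char.Linear
import Cfsg.Agent.Lib.Char.Eigen
import Cfsg.Agent.Lib.Char.Extend
import Cfsg.Agent.Lib.Char.Zeros
import Cfsg.Agent.Lib.BlockT.CharSum
import Cfsg.Agent.Lib.CharZeros.Gallagher

/-!
# Sylow subgroups all of whose nontrivial elements have the same centralizer

`P` is a Sylow `p`-subgroup with `C_G(x) = C_G(P)` for `1 ≠ x ∈ P`: then `P` is abelian and
trivial-intersection.  If no proper normal subgroup contains `P`, an irreducible character of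
degree `x` with `x² < |P| - 1` is linear.
-/

set_option autoImplicit false
set_option linter.unusedSectionVars false

namespace Cfsg.Agent.Lib.CharDeg.TISylow

open Cfsg Cfsg.Agent.Lib.Char.Basic Cfsg.Agent.Lib.Char.Ortho Cfsg.Agent.Lib.Char.Induced
open Cfsg.Agent.Lib.Char.Complete Cfsg.Agent.Lib.CharDeg.TIForm Cfsg.Agent.Lib.CharDeg.TIPattern
open scoped ComplexConjugate

universe u

section Groups

variable {G : Type u} [Group G] [Finite G] {p : ℕ} [hp : Fact p.Prime] (P : Sylow p G)

/-- The centralizer of `P`. -/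
abbrev Cn : Subgroup G := Subgroup.centralizer ((P : Subgroup G) : Set G)
/-- The normalizer of `P`. -/
abbrev Nn : Subgroup G := Subgroup.normalizer ((P : Subgroup G) : Set G)

variable (hstar : ∀ x ∈ (P : Subgroup G), x ≠ 1 →
  Subgroup.centralizer ({x} : Set G) = Subgroup.centralizer ((P : Subgroup G) : Set G))
variable (hpG : p ∣ Nat.card G)

include hstar hpG in
theorem comm_of_star : ∀ a ∈ (P : Subgroup G), ∀ b ∈ (P : Subgroup G), a * b = b * a := by
  have hne : (P : Subgroup G) ≠ ⊥ := P.ne_bot_of_dvd_card hpG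
  haveI : Nontrivial (P : Subgroup G) := (Subgroup.nontrivial_iff_ne_bot _).mpr hne
  haveI := P.2.center_nontrivial
  obtain ⟨z, hz⟩ := exists_ne (1 : Subgroup.center (P : Subgroup G))
  have hz1 : ((z : (P : Subgroup G)) : G) ≠ 1 := by
    intro h
    apply hz
    apply Subtype.ext
    apply Subtype.ext
    exact h
  have hC := hstar _ (z : (P : Subgroup G)).2 hz1
  intro a ha b hb
  have h1 : a ∈ Subgroup.centralizer ({((z : (P : Subgroup G)) : G)} : Set G) := by
    rw [Subgroup.mem_centralizer_singleton_iff]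
    have := (Subgroup.mem_center_iff.mp z.2) ⟨a, ha⟩
    have h2 := congrArg (fun w : (P : Subgroup G) => (w : G)) this
    exact h2
  rw [hC] at h1
  exact (Subgroup.mem_centralizer_iff.mp h1 b hb).symm

/-- A `p`-subgroup of the centralizer of `P` is contained in `P`. -/
theorem le_of_le_centralizer {R : Subgroup G} (hR : IsPGroup p R) (hRC : R ≤ Cn P) :
    R ≤ (P : Subgroup G) := by
  have h1 : R ≤ Subgroup.normalizer ((P : Subgroup G) : Set G) := by
    intro r hr
    rw [Subgroup.mem_normalizer_iff]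
    intro w
    have hc := Subgroup.mem_centralizer_iff.mp (hRC hr)
    constructor
    · intro hw
      have := hc w hw
      rw [← this]
      simpa using hw
    · intro hw
      by_contra hnw
      have h3 := hc _ hw
      have h5 : w = r * w * r⁻¹ := by
        have h6 : r * w = r * (r * w * r⁻¹) := by
          rw [← h3]; group
        exact mul_left_cancel h6
      rw [h5] at hnw
      exact hnw hw
  have h2 := hR.to_sup_of_normal_right' P.2 h1
  have h3 : R ⊔ (P : Subgroup G) = P := P.3 h2 le_sup_right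
  rw [← h3]
  exact le_sup_left

include hstar hpG in
/-- **The TI property.** -/
theorem mem_normalizer_of_conj {u t : G} (hu : u ∈ (P : Subgroup G)) (hu1 : u ≠ 1)
    (ht : t⁻¹ * u * t ∈ (P : Subgroup G)) : t ∈ Nn P := by
  have hcomm := comm_of_star P hstar hpG
  have hu' : t⁻¹ * u * t ≠ 1 := by
    intro h
    apply hu1
    have := congrArg (fun z => t * z * t⁻¹) h
    simpa [mul_assoc] using this
  have hC := hstar _ ht hu'
  let R : Subgroup G := (P : Subgroup G).map (MulAut.conj t⁻¹).toMonoidHom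
  have hRp : IsPGroup p R := P.2.map _
  have hRC : R ≤ Cn P := by
    rintro _ ⟨w, hw, rfl⟩
    change t⁻¹ * w * t⁻¹⁻¹ ∈ Cn P
    rw [inv_inv]
    have hm : t⁻¹ * w * t ∈ Subgroup.centralizer ({t⁻¹ * u * t} : Set G) := by
      rw [Subgroup.mem_centralizer_singleton_iff]
      have := hcomm w hw u hu
      calc t⁻¹ * w * t * (t⁻¹ * u * t) = t⁻¹ * (w * u) * t := by group
        _ = t⁻¹ * (u * w) * t := by rw [this]
        _ = t⁻¹ * u * t * (t⁻¹ * w * t) := by group
    rw [hC] at hm
    exact hm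
  have hle := le_of_le_centralizer P hRp hRC
  have h1 : t⁻¹ ∈ Nn P := by
    apply Subgroup.mem_normalizer_fintype
    intro n hn
    exact hle ⟨n, hn, rfl⟩
  simpa using (Nn P).inv_mem h1

theorem Cn_le_Nn : Cn P ≤ Nn P := by
  intro y hy
  rw [Subgroup.mem_normalizer_iff]
  intro w
  have hc := Subgroup.mem_centralizer_iff.mp hy
  constructor
  · intro hw
    have h1 := hc w hw
    have : y * w * y⁻¹ = w := by rw [← h1]; group
    rw [this]; exact hw
  · intro hw
    have h1 := hc _ hw
    have h3 : y * w = y * (y * w * y⁻¹) := by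
      rw [← h1]; group
    have h4 := mul_left_cancel h3
    rw [h4]; exact hw

theorem Nn_le_normalizer_Cn : Nn P ≤ Subgroup.normalizer ((Cn P : Subgroup G) : Set G) := by
  intro t ht
  rw [Subgroup.mem_normalizer_iff]
  intro y
  have htn := Subgroup.mem_normalizer_iff.mp ht
  constructor
  · intro hy
    rw [Subgroup.mem_centralizer_iff] at hy ⊢
    intro w hw
    have h1 : t⁻¹ * w * t ∈ (P : Subgroup G) := by
      have h5 := (htn (t⁻¹ * w * t)).mpr (by
        have h6 : t * (t⁻¹ * w * t) * t⁻¹ = w := by group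
        rw [h6]; exact hw)
      exact h5
    have h2 := hy _ h1
    calc w * (t * y * t⁻¹) = t * ((t⁻¹ * w * t) * y) * t⁻¹ := by group
      _ = t * (y * (t⁻¹ * w * t)) * t⁻¹ := by rw [h2]
      _ = t * y * t⁻¹ * w := by group
  · intro hy
    rw [Subgroup.mem_centralizer_iff] at hy ⊢
    intro w hw
    have h1 := hy _ ((htn w).mp hw)
    have h2 : t * (w * y) * t⁻¹ = t * (y * w) * t⁻¹ := by
      calc t * (w * y) * t⁻¹ = (t * w * t⁻¹) * (t * y * t⁻¹) := by group
        _ = (t * y * t⁻¹) * (t * w * t⁻¹) := h1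
        _ = t * (y * w) * t⁻¹ := by group
    exact mul_left_cancel (mul_right_cancel h2)

end Groups

section Power

variable {C : Type*} [Group C] [Finite C]

open scoped IsMulCommutative in
/-- A central subgroup: `y ↦ y ^ index` is a homomorphism. -/
theorem pow_index_of_central (H : Subgroup C) (hH : ∀ h ∈ H, ∀ g : C, h * g = g * h) :
    (∀ y : C, y ^ H.index ∈ H) ∧ ∀ y z : C, (y * z) ^ H.index = y ^ H.index * z ^ H.index := by
  classical
  haveI : IsMulCommutative H := ⟨⟨fun a b => Subtype.ext (hH a a.2 b)⟩⟩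
  haveI : H.FiniteIndex := inferInstance
  have key : ∀ (g : C) (k : ℕ) (g₀ : C), g₀⁻¹ * g ^ k * g₀ ∈ H → g₀⁻¹ * g ^ k * g₀ = g ^ k := by
    intro g k g₀ h
    have h1 := hH _ h g₀
    have h2 : g₀ * (g₀⁻¹ * g ^ k * g₀) = g ^ k * g₀ := by group
    rw [h2] at h1
    exact mul_right_cancel h1
  refine ⟨fun y => MonoidHom.transfer_eq_pow_aux y (key y), fun y z => ?_⟩
  have h1 := MonoidHom.transfer_eq_pow (MonoidHom.id H) (y * z) (key _)
  have h2 := MonoidHom.transfer_eq_pow (MonoidHom.id H) y (key _)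
  have h3 := MonoidHom.transfer_eq_pow (MonoidHom.id H) z (key _)
  rw [map_mul, h2, h3] at h1
  have h4 := congrArg (fun w : H => (w : C)) h1
  exact h4.symm

end Power

section PowerMap

variable {G : Type u} [Group G] [Finite G] {p : ℕ} [hp : Fact p.Prime] (P : Sylow p G)
variable (hstar : ∀ x ∈ (P : Subgroup G), x ≠ 1 →
  Subgroup.centralizer ({x} : Set G) = Subgroup.centralizer ((P : Subgroup G) : Set G))
variable (hpG : p ∣ Nat.card G)

include hstar hpG in
/-- The projection `C_G(P) → P` is a power map. -/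
theorem exists_power : ∃ M : ℕ, (∀ y ∈ Cn P, y ^ M ∈ (P : Subgroup G)) ∧
    (∀ y ∈ Cn P, ∀ z ∈ Cn P, (y * z) ^ M = y ^ M * z ^ M) ∧
    (∀ u ∈ (P : Subgroup G), u ^ M = u) := by
  classical
  have hcomm := comm_of_star P hstar hpG
  have hPC : (P : Subgroup G) ≤ Cn P := by
    intro u hu
    rw [Subgroup.mem_centralizer_iff]
    intro w hw
    exact hcomm w hw u hu
  let H : Subgroup (Cn P) := (P : Subgroup G).subgroupOf (Cn P)
  have hH : ∀ h ∈ H, ∀ g : Cn P, h * g = g * h := by
    intro h hh g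
    apply Subtype.ext
    exact Subgroup.mem_centralizer_iff.mp g.2 _ (Subgroup.mem_subgroupOf.mp hh)
  obtain ⟨h1, h2⟩ := pow_index_of_central H hH
  set m := H.index with hm
  have hmdvd : m ∣ (P : Subgroup G).index := by
    have h3 := Subgroup.relIndex_mul_index hPC
    exact ⟨_, h3.symm⟩
  have hpm : ¬ p ∣ m := fun h => P.not_dvd_index (h.trans hmdvd)
  have hne : (P : Subgroup G) ≠ ⊥ := P.ne_bot_of_dvd_card hpG
  haveI : Nontrivial (P : Subgroup G) := (Subgroup.nontrivial_iff_ne_bot _).mpr hne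
  obtain ⟨k, hk⟩ := IsPGroup.iff_card.mp P.2
  have hcop : Nat.Coprime m (Nat.card (P : Subgroup G)) := by
    rw [hk]
    exact Nat.Coprime.pow_right _ ((Nat.Prime.coprime_iff_not_dvd hp.out).mpr hpm).symm
  have h1lt : 1 < Nat.card (P : Subgroup G) := Finite.one_lt_card
  obtain ⟨m', -, hm'⟩ := Nat.exists_mul_mod_eq_one_of_coprime hcop h1lt
  refine ⟨m * m', ?_, ?_, ?_⟩
  · intro y hy
    rw [pow_mul]
    have := Subgroup.mem_subgroupOf.mp (h1 ⟨y, hy⟩)
    exact Subgroup.pow_mem _ this _
  · intro y hy z hz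
    have h3 := congrArg (fun w : Cn P => (w : G)) (h2 ⟨y, hy⟩ ⟨z, hz⟩)
    simp only [Subgroup.coe_mul, Subgroup.coe_pow] at h3
    have hy' : y ^ m ∈ (P : Subgroup G) := Subgroup.mem_subgroupOf.mp (h1 ⟨y, hy⟩)
    have hz' : z ^ m ∈ (P : Subgroup G) := Subgroup.mem_subgroupOf.mp (h1 ⟨z, hz⟩)
    rw [pow_mul, pow_mul, pow_mul, h3]
    exact (show Commute (y ^ m) (z ^ m) from hcomm _ hy' _ hz').mul_pow m'
  · intro u hu
    have h3 : u ^ Nat.card (P : Subgroup G) = 1 := by
      have := pow_card_eq_one' (x := (⟨u, hu⟩ : (P : Subgroup G)))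
      exact congrArg (fun w : (P : Subgroup G) => (w : G)) this
    rw [pow_eq_pow_mod _ h3, hm', pow_one]

end PowerMap

end Cfsg.Agent.Lib.CharDeg.TISylow
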