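import Mathlib
import Cfsg.Agent.Lib.CharDeg.TISylow

/-!
# Characters of `C_G(P)` for a Sylow subgroup with constant centralizers
-/

set_option autoImplicit false
set_option linter.unusedSectionVars false

namespace Cfsg.Agent.Lib.CharDeg.TIChars

open Cfsg Cfsg.Agent.Lib.Char.Basic Cfsg.Agent.Lib.Char.Ortho Cfsg.Agent.Lib.Char.Induced
open Cfsg.Agent.Lib.Char.Complete Cfsg.Agent.Lib.CharDeg.TIForm Cfsg.Agent.Lib.CharDeg.TIPattern
open Cfsg.Agent.Lib.CharDeg.TISylow
open scoped ComplexConjugate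

universe u

section Abelian

variable {A : Type u} [Group A] [Fintype A] [Fintype (IrrCharacter A)]

/-- Coefficients for a character of an abelian group. -/
theorem exists_coeff (hcomm : ∀ a b : A, a * b = b * a) {f : A → ℂ} (hf : IsCharacter A f) :
    ∃ n : IrrCharacter A → ℕ, (∀ θ : IrrCharacter A, classInner f (θ : A → ℂ) = n θ) ∧ f 1 = ((∑ θ, n θ : ℕ) : ℂ) ∧
      classInner f f = ((∑ θ, n θ ^ 2 : ℕ) : ℂ) := by
  classical
  have h : ∀ θ : IrrCharacter A, ∃ k : ℕ, classInner f (θ : A → ℂ) = k := fun θ =>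
    exists_nat_classInner hf (isCharacter_of_isIrrCharacter θ.2)
  choose n hn using h
  refine ⟨n, hn, ?_, ?_⟩
  · have h1 := congrFun (classFunction_eq_sum (isClassFunction_of_isCharacter hf)) 1
    rw [h1, Finset.sum_apply]
    push_cast
    refine Finset.sum_congr rfl fun θ _ => ?_
    simp only [Pi.smul_apply, smul_eq_mul]
    rw [Cfsg.Agent.Lib.Char.Linear.isIrr_deg_one_of_comm hcomm θ.2, hn θ, mul_one]
  · rw [classInner_eq_sum (isClassFunction_of_isCharacter hf)]
    push_cast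
    refine Finset.sum_congr rfl fun θ _ => ?_
    rw [hn θ, Complex.conj_natCast]
    ring

/-- The support of a character of an abelian group is bounded by its degree. -/
theorem card_support_add_le (hcomm : ∀ a b : A, a * b = b * a) {f : A → ℂ} (hf : IsCharacter A f)
    (one : IrrCharacter A) {k d : ℕ} (hk : classInner f (one : A → ℂ) = k) (hd : f 1 = d)
    [DecidablePred fun θ : IrrCharacter A => classInner f (θ : A → ℂ) ≠ 0] :
    ((Finset.univ.erase one).filter fun θ : IrrCharacter A => classInner f (θ : A → ℂ) ≠ 0).card + k ≤ d := by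
  classical
  obtain ⟨n, hn, h1, -⟩ := exists_coeff hcomm hf
  have hd' : d = ∑ θ, n θ := by
    have : (d : ℂ) = ((∑ θ, n θ : ℕ) : ℂ) := by rw [← hd, h1]
    exact_mod_cast this
  have hk' : k = n one := by
    have : (k : ℂ) = n one := by rw [← hk, hn]
    exact_mod_cast this
  rw [hd', hk', ← Finset.add_sum_erase Finset.univ n (Finset.mem_univ one), add_comm]
  apply Nat.add_le_add_left
  rw [Finset.card_filter]
  refine Finset.sum_le_sum fun θ _ => ?_
  split_ifs with h
  · rw [hn] at h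
    have : n θ ≠ 0 := by
      intro h0
      apply h
      rw [h0]
      simp
    omega
  · omega

end Abelian

section Chars

variable {G : Type u} [Group G] [Fintype G] {p : ℕ} [hp : Fact p.Prime] (P : Sylow p G)
variable [Fintype (Cn P)] [Fintype (Nn P)] [Fintype (P : Subgroup G)]
variable (hcomm : ∀ a ∈ (P : Subgroup G), ∀ b ∈ (P : Subgroup G), a * b = b * a)
variable {M : ℕ} (hM1 : ∀ y ∈ Cn P, y ^ M ∈ (P : Subgroup G))
  (hM2 : ∀ y ∈ Cn P, ∀ z ∈ Cn P, (y * z) ^ M = y ^ M * z ^ M)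
  (hM3 : ∀ u ∈ (P : Subgroup G), u ^ M = u)

include hcomm in
theorem le_Cn : (P : Subgroup G) ≤ Cn P := by
  intro u hu
  rw [Subgroup.mem_centralizer_iff]
  intro w hw
  exact hcomm w hw u hu

/-- The retraction. -/
def rr : Cn P →* (P : Subgroup G) :=
  MonoidHom.mk' (fun y => ⟨(y : G) ^ M, hM1 _ y.2⟩) (fun a b => Subtype.ext (hM2 _ a.2 _ b.2))

@[simp] theorem coe_rr (y : Cn P) : (rr P hM1 hM2 y : G) = (y : G) ^ M := rfl

/-- The inclusion of `P`. -/
abbrev iP : (P : Subgroup G) →* Cn P := Subgroup.inclusion (le_Cn P hcomm)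

@[simp] theorem coe_iP (u : (P : Subgroup G)) : (iP P hcomm u : G) = u := rfl

include hM3 in
theorem rr_iP (u : (P : Subgroup G)) : rr P hM1 hM2 (iP P hcomm u) = u :=
  Subtype.ext (hM3 _ u.2)

include hM3 hcomm in
theorem rr_surjective : Function.Surjective (rr P hM1 hM2) := fun u =>
  ⟨iP P hcomm u, rr_iP P hcomm hM1 hM2 hM3 u⟩

theorem iP_comm (u : (P : Subgroup G)) (y : Cn P) : iP P hcomm u * y = y * iP P hcomm u := by
  apply Subtype.ext
  exact Subgroup.mem_centralizer_iff.mp y.2 _ u.2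

/-- The central character identity. -/
theorem cen_mul {ρ : Cn P → ℂ} (hρ : IsIrrCharacter (Cn P) ρ) (u : (P : Subgroup G)) (y : Cn P) :
    ρ (iP P hcomm u * y) * ρ 1 = ρ (iP P hcomm u) * ρ y := by
  classical
  have h := Cfsg.Agent.Lib.BlockT.CharSum.sum_conj hρ y (iP P hcomm u)
  have h1 : ∀ t : Cn P, ρ (y * (t * iP P hcomm u * t⁻¹)) = ρ (iP P hcomm u * y) := by
    intro t
    rw [← iP_comm P hcomm u t, mul_inv_cancel_right, iP_comm]
  rw [Finset.sum_congr rfl (fun t _ => h1 t)] at h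
  simp only [Finset.sum_const, Finset.card_univ, nsmul_eq_mul] at h
  have hc : (Fintype.card (Cn P) : ℂ) ≠ 0 := by
    exact_mod_cast Fintype.card_ne_zero
  have h2 : ρ (iP P hcomm u * y) * ρ 1 = ρ y * ρ (iP P hcomm u) := by
    apply mul_left_cancel₀ hc
    linear_combination h
  rw [h2, mul_comm]

/-- The central character of an irreducible character of `C`. -/
noncomputable def cen (ρ : Cn P → ℂ) : ↥(P : Subgroup G) → ℂ := fun u => ρ (iP P hcomm u) / ρ 1

theorem isIrr_cen {ρ : Cn P → ℂ} (hρ : IsIrrCharacter (Cn P) ρ) :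
    IsIrrCharacter (P : Subgroup G) (cen P hcomm ρ) := by
  have h0 := irr_one_ne_zero hρ
  let f : (P : Subgroup G) →* ℂ :=
    { toFun := cen P hcomm ρ
      map_one' := by
        simp [cen, h0]
      map_mul' := by
        intro a b
        simp only [cen]
        have := cen_mul P hcomm hρ a (iP P hcomm b)
        rw [map_mul]
        field_simp
        linear_combination this }
  have h1 := Cfsg.Agent.Lib.Char.Linear.isIrrCharacter_of_hom f.toHomUnits
  convert h1 using 1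
  funext u
  simp [f]

/-- The family of twists. -/
noncomputable def fam (φ : Cn P → ℂ) (θ : ↥(P : Subgroup G) → ℂ) : Cn P → ℂ :=
  fun y => θ (rr P hM1 hM2 y) * φ y

include hcomm in
theorem theta_one {θ : ↥(P : Subgroup G) → ℂ} (hθ : IsIrrCharacter (P : Subgroup G) θ) : θ 1 = 1 :=
  Cfsg.Agent.Lib.Char.Linear.isIrr_deg_one_of_comm
    (fun a b => Subtype.ext (hcomm a a.2 b b.2)) hθ

include hcomm in
theorem theta_mul {θ : ↥(P : Subgroup G) → ℂ} (hθ : IsIrrCharacter (P : Subgroup G) θ)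
    (a b : (P : Subgroup G)) : θ (a * b) = θ a * θ b :=
  Cfsg.Agent.Lib.Char.Linear.deg_one_mul (isCharacter_of_isIrrCharacter hθ)
    (theta_one P hcomm hθ) a b

include hcomm in
theorem isChar_tw {θ : ↥(P : Subgroup G) → ℂ} (hθ : IsIrrCharacter (P : Subgroup G) θ) :
    IsCharacter (Cn P) (θ ∘ rr P hM1 hM2) :=
  isCharacter_comp _ (isCharacter_of_isIrrCharacter hθ)

include hcomm in
theorem isIrr_fam {θ : ↥(P : Subgroup G) → ℂ} (hθ : IsIrrCharacter (P : Subgroup G) θ)
    {φ : Cn P → ℂ} (hφ : IsIrrCharacter (Cn P) φ) :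
    IsIrrCharacter (Cn P) (fam P hM1 hM2 φ θ) := by
  apply Cfsg.Agent.Lib.CharZeros.Gallagher.isIrrCharacter_mul_linear (isChar_tw P hcomm hM1 hM2 hθ) _ hφ
  simp [theta_one P hcomm hθ]

variable {φ : Cn P → ℂ}

include hM3 in
theorem fam_iP (hφ : ∀ (u : (P : Subgroup G)) (y : Cn P), φ (iP P hcomm u * y) = φ y)
    (θ : ↥(P : Subgroup G) → ℂ) (w : (P : Subgroup G)) :
    fam P hM1 hM2 φ θ (iP P hcomm w) = θ w * φ 1 := by
  simp only [fam]
  rw [rr_iP P hcomm hM1 hM2 hM3]
  have := hφ w 1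
  rw [mul_one] at this
  rw [this]

include hcomm in
theorem fam_of_pow_eq_one {θ : ↥(P : Subgroup G) → ℂ} (hθ : IsIrrCharacter (P : Subgroup G) θ)
    (y : Cn P) (hy : (y : G) ^ M = 1) : fam P hM1 hM2 φ θ y = φ y := by
  have : rr P hM1 hM2 y = 1 := Subtype.ext hy
  simp only [fam]
  rw [this, theta_one P hcomm hθ, one_mul]

include hM3 in
theorem fam_ne_one (hφ : ∀ (u : (P : Subgroup G)) (y : Cn P), φ (iP P hcomm u * y) = φ y)
    {θ : ↥(P : Subgroup G) → ℂ} (hθ : IsIrrCharacter (P : Subgroup G) θ)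
    (hθ1 : θ ≠ fun _ => 1) : fam P hM1 hM2 φ θ ≠ fun _ => 1 := by
  intro h
  apply hθ1
  have h1 := congrFun h (iP P hcomm 1)
  rw [fam_iP P hcomm hM1 hM2 hM3 hφ, theta_one P hcomm hθ, one_mul] at h1
  funext w
  have h2 := congrFun h (iP P hcomm w)
  rw [fam_iP P hcomm hM1 hM2 hM3 hφ, h1, mul_one] at h2
  exact h2

include hM3 in
theorem fam_injective (hφ : ∀ (u : (P : Subgroup G)) (y : Cn P), φ (iP P hcomm u * y) = φ y)
    (hφi : IsIrrCharacter (Cn P) φ) {θ θ' : ↥(P : Subgroup G) → ℂ}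
    (h : fam P hM1 hM2 φ θ = fam P hM1 hM2 φ θ') : θ = θ' := by
  funext w
  have h2 := congrFun h (iP P hcomm w)
  rw [fam_iP P hcomm hM1 hM2 hM3 hφ, fam_iP P hcomm hM1 hM2 hM3 hφ] at h2
  exact mul_right_cancel₀ (irr_one_ne_zero hφi) h2

/-- Conjugation on `P` by an element of the normalizer. -/
def cP (t : Nn P) : (P : Subgroup G) ≃* (P : Subgroup G) := cj (P : Subgroup G) t t.2

theorem act_iP (t : Nn P) (g : Cn P → ℂ) (u : (P : Subgroup G)) :
    act (Cn P) t g (iP P hcomm u) = g (iP P hcomm (cP P t u)) := by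
  have hm : (t : G)⁻¹ * (iP P hcomm u : G) * t ∈ Cn P := (cj (Cn P) t
    (Nn_le_normalizer_Cn P t.2) (iP P hcomm u)).2
  change extendByZero (Cn P) g ((t : G)⁻¹ * (iP P hcomm u : G) * t) = _
  rw [extendByZero_of_mem _ _ hm]
  rfl

variable (hstar : ∀ x ∈ (P : Subgroup G), x ≠ 1 →
  Subgroup.centralizer ({x} : Set G) = Subgroup.centralizer ((P : Subgroup G) : Set G))

include hstar hcomm in
/-- An element of the normalizer outside the centralizer moves each nontrivial character of `P`. -/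
theorem mem_Cn_of_invariant {θ : ↥(P : Subgroup G) → ℂ} (hθ : IsIrrCharacter (P : Subgroup G) θ)
    (hθ1 : θ ≠ fun _ => 1) (t : Nn P) (hinv : ∀ u, θ (cP P t u) = θ u) : (t : G) ∈ Cn P := by
  classical
  by_contra ht
  let δ : ↥(P : Subgroup G) → ↥(P : Subgroup G) := fun u => cP P t u * u⁻¹
  have hcm : ∀ a b : (P : Subgroup G), a * b = b * a := fun a b =>
    Subtype.ext (hcomm a a.2 b b.2)
  have hinj : Function.Injective δ := by
    intro u v huv
    simp only [δ] at huv
    by_contra hne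
    -- `w = u v⁻¹` is fixed
    have hw : cP P t (u * v⁻¹) = u * v⁻¹ := by
      rw [map_mul, map_inv]
      have h1 : cP P t u = cP P t v * v⁻¹ * u := by
        rw [← huv]; group
      rw [h1]
      calc cP P t v * v⁻¹ * u * (cP P t v)⁻¹ = cP P t v * (v⁻¹ * u) * (cP P t v)⁻¹ := by group
        _ = (v⁻¹ * u) * cP P t v * (cP P t v)⁻¹ := by rw [hcm (cP P t v) (v⁻¹ * u)]
        _ = v⁻¹ * u := by group
        _ = u * v⁻¹ := hcm _ _
    have hw1 : ((u * v⁻¹ : (P : Subgroup G)) : G) ≠ 1 := by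
      intro h
      apply hne
      have h2 : u * v⁻¹ = 1 := Subtype.ext h
      exact mul_inv_eq_one.mp h2
    have hc := hstar _ (u * v⁻¹ : (P : Subgroup G)).2 hw1
    apply ht
    have h3 : (t : G) ∈ Subgroup.centralizer ({((u * v⁻¹ : (P : Subgroup G)) : G)} : Set G) := by
      rw [Subgroup.mem_centralizer_singleton_iff]
      have h4 := congrArg (fun z : (P : Subgroup G) => (z : G)) hw
      have h5 : (t : G)⁻¹ * ((u * v⁻¹ : (P : Subgroup G)) : G) * t = ((u * v⁻¹ : (P : Subgroup G)) : G) := h4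
      calc (t : G) * ((u * v⁻¹ : (P : Subgroup G)) : G)
          = t * ((t : G)⁻¹ * ((u * v⁻¹ : (P : Subgroup G)) : G) * t) := by rw [h5]
        _ = ((u * v⁻¹ : (P : Subgroup G)) : G) * t := by group
    rw [hc] at h3
    exact h3
  have hsurj : Function.Surjective δ := Finite.injective_iff_surjective.mp hinj
  apply hθ1
  funext w
  obtain ⟨u, rfl⟩ := hsurj w
  simp only [δ]
  rw [theta_mul P hcomm hθ, hinv u, ← theta_mul P hcomm hθ, mul_inv_cancel, theta_one P hcomm hθ]

include hM3 hstar in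
theorem fam_free (hφ : ∀ (u : (P : Subgroup G)) (y : Cn P), φ (iP P hcomm u * y) = φ y)
    (hφi : IsIrrCharacter (Cn P) φ) {θ : ↥(P : Subgroup G) → ℂ}
    (hθ : IsIrrCharacter (P : Subgroup G) θ) (hθ1 : θ ≠ fun _ => 1) (t : Nn P)
    (h : act (Cn P) t (fam P hM1 hM2 φ θ) = fam P hM1 hM2 φ θ) : (t : G) ∈ Cn P := by
  apply mem_Cn_of_invariant P hcomm hstar hθ hθ1 t
  intro u
  have h2 := congrFun h (iP P hcomm u)
  rw [act_iP P hcomm, fam_iP P hcomm hM1 hM2 hM3 hφ, fam_iP P hcomm hM1 hM2 hM3 hφ] at h2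
  exact mul_right_cancel₀ (irr_one_ne_zero hφi) h2

include hM3 in
/-- A constituent of `ψ_C` in the family restricts to a constituent of `ψ_P`. -/
theorem classInner_ne_zero_of_fam {ψ : G → ℂ} (hψ : IsCharacter G ψ)
    (hφ : ∀ (u : (P : Subgroup G)) (y : Cn P), φ (iP P hcomm u * y) = φ y)
    (hφi : IsIrrCharacter (Cn P) φ) {θ : ↥(P : Subgroup G) → ℂ}
    (hθ : IsIrrCharacter (P : Subgroup G) θ)
    (h : classInner (fun y : Cn P => ψ y) (fam P hM1 hM2 φ θ) ≠ 0) :
    classInner (fun u : (P : Subgroup G) => ψ u) θ ≠ 0 := by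
  have h1 := Cfsg.Agent.Lib.Char.Clifford.classInner_ne_zero_mono (iP P hcomm)
    (isCharacter_restrict (Cn P) hψ) (isIrr_fam P hcomm hM1 hM2 hθ hφi) h
    (isCharacter_of_isIrrCharacter hθ) (by
      have h2 : (fam P hM1 hM2 φ θ) ∘ (iP P hcomm) = (φ 1) • θ := by
        funext w
        simp only [Function.comp, Pi.smul_apply, smul_eq_mul]
        rw [fam_iP P hcomm hM1 hM2 hM3 hφ, mul_comm]
      rw [h2, classInner_smul_left, classInner_self_of_isIrr hθ, mul_one]
      exact irr_one_ne_zero hφi)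
  exact h1

include hM3 in
/-- Every irreducible character of `C` lies in a family. -/
theorem exists_phi {ρ : Cn P → ℂ} (hρ : IsIrrCharacter (Cn P) ρ) :
    ∃ φ : Cn P → ℂ, IsIrrCharacter (Cn P) φ ∧
      (∀ (u : (P : Subgroup G)) (y : Cn P), φ (iP P hcomm u * y) = φ y) ∧
      fam P hM1 hM2 φ (cen P hcomm ρ) = ρ := by
  have hc := isIrr_cen P hcomm hρ
  have h0 := irr_one_ne_zero hρ
  set θ := cen P hcomm ρ with hθdef
  have hone := theta_one P hcomm hc
  have hmul := theta_mul P hcomm hc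
  let ν : Cn P → ℂ := fun y => (θ ∘ rr P hM1 hM2) y⁻¹
  have hν : IsCharacter (Cn P) ν := isCharacter_inv (isChar_tw P hcomm hM1 hM2 hc)
  have hν1 : ν 1 = 1 := by simp [ν, hone]
  refine ⟨fun y => ν y * ρ y,
    Cfsg.Agent.Lib.CharZeros.Gallagher.isIrrCharacter_mul_linear hν hν1 hρ, ?_, ?_⟩
  · intro u y
    have h1 := cen_mul P hcomm hρ u y
    have h2 : ρ (iP P hcomm u * y) = θ u * ρ y := by
      simp only [hθdef, cen]
      field_simp
      exact h1
    simp only [ν, Function.comp]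
    rw [h2, mul_inv_rev, map_mul, hmul, map_inv (rr P hM1 hM2) (iP P hcomm u),
      rr_iP P hcomm hM1 hM2 hM3]
    have h3 : θ u⁻¹ * θ u = 1 := by
      rw [← hmul, inv_mul_cancel, hone]
    linear_combination (θ ((rr P hM1 hM2) y⁻¹) * ρ y) * h3
  · funext y
    simp only [fam, ν, Function.comp]
    have h3 : θ (rr P hM1 hM2 y) * θ (rr P hM1 hM2 y⁻¹) = 1 := by
      rw [← hmul, ← map_mul, mul_inv_cancel, map_one, hone]
    linear_combination (ρ y) * h3

end Chars

end Cfsg.Agent.Lib.CharDeg.TIChars
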