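import Mathlib
import Cfsg.Agent.Lib.CharDeg.TIChars

/-!
# Small degree characters when a Sylow subgroup has constant centralizers
-/

set_option autoImplicit false
set_option linter.unusedSectionVars false

namespace Cfsg.Agent.Lib.CharDeg.TIMain

open Cfsg Cfsg.Agent.Lib.Char.Basic Cfsg.Agent.Lib.Char.Ortho Cfsg.Agent.Lib.Char.Induced
open Cfsg.Agent.Lib.Char.Complete Cfsg.Agent.Lib.CharDeg.TIForm Cfsg.Agent.Lib.CharDeg.TIPattern
open Cfsg.Agent.Lib.CharDeg.TISylow Cfsg.Agent.Lib.CharDeg.TIChars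
open scoped ComplexConjugate

universe u

section Orbits

variable {G : Type u} [Group G] [Fintype G] {p : ℕ} [hp : Fact p.Prime] (P : Sylow p G)
variable [Fintype (Cn P)] [Fintype (Nn P)] [Fintype (P : Subgroup G)]
variable (hcomm : ∀ a ∈ (P : Subgroup G), ∀ b ∈ (P : Subgroup G), a * b = b * a)
variable (hstar : ∀ x ∈ (P : Subgroup G), x ≠ 1 →
  Subgroup.centralizer ({x} : Set G) = Subgroup.centralizer ((P : Subgroup G) : Set G))

/-- The trivial character of `P`. -/
noncomputable def oneP : IrrCharacter (P : Subgroup G) :=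
  ⟨fun _ => 1, Cfsg.Agent.Lib.Char.Burnside.isIrrCharacter_one⟩

/-- The nontrivial characters of `P`. -/
abbrev XP : Type u := {θ : IrrCharacter (P : Subgroup G) // θ ≠ oneP P}

theorem XP_ne (θ : XP P) : ((θ : IrrCharacter (P : Subgroup G)) : ↥(P : Subgroup G) → ℂ) ≠ fun _ => 1 :=
  fun h => θ.2 (Subtype.ext h)

theorem act_P_const (t : Nn P) : act (P : Subgroup G) t (fun _ => (1 : ℂ)) = fun _ => 1 :=
  act_const (C := (P : Subgroup G)) (N := Nn P) le_rfl t

/-- The action of the normalizer on nontrivial characters. -/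
noncomputable instance actX : MulAction (Nn P) (XP P) where
  smul t θ := ⟨⟨act (P : Subgroup G) t (θ : IrrCharacter (P : Subgroup G)),
      isIrr_act (P : Subgroup G) (t : G) t.2 θ.1.2⟩, by
    intro h
    apply XP_ne P θ
    have h1 := congrArg Subtype.val h
    have h2 : act (P : Subgroup G) t (θ : IrrCharacter (P : Subgroup G)) = fun _ => 1 := h1
    have h3 := congrArg (act (P : Subgroup G) ((t⁻¹ : Nn P) : G)) h2
    rw [act_act _ _ _ (t⁻¹ : Nn P).2, act_P_const P t⁻¹] at h3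
    simpa [act_one] using h3⟩
  one_smul θ := by
    apply Subtype.ext
    apply Subtype.ext
    exact act_one _ _
  mul_smul a b θ := by
    apply Subtype.ext
    apply Subtype.ext
    exact (act_act _ _ _ a.2 _).symm

theorem coe_smul (t : Nn P) (θ : XP P) :
    (((t • θ : XP P) : IrrCharacter (P : Subgroup G)) : ↥(P : Subgroup G) → ℂ) =
      act (P : Subgroup G) t (θ : IrrCharacter (P : Subgroup G)) := rfl

include hcomm hstar in
theorem mem_stabilizer_iff (θ : XP P) (t : Nn P) :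
    t ∈ MulAction.stabilizer (Nn P) θ ↔ (t : G) ∈ Cn P := by
  rw [MulAction.mem_stabilizer_iff]
  constructor
  · intro h
    have h1 : act (P : Subgroup G) t (θ : IrrCharacter (P : Subgroup G)) = (θ : IrrCharacter (P : Subgroup G)) := by
      rw [← coe_smul, h]
    apply mem_Cn_of_invariant P hcomm hstar θ.1.2 (XP_ne P θ) t
    intro u
    have h2 := congrFun h1 u
    rw [act_eq_comp _ _ t.2] at h2
    exact h2
  · intro ht
    apply Subtype.ext
    apply Subtype.ext
    change act (P : Subgroup G) t (θ : IrrCharacter (P : Subgroup G)) = _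
    funext u
    have hm : (t : G)⁻¹ * (u : G) * t ∈ (P : Subgroup G) := (cj (P : Subgroup G) t t.2 u).2
    change extendByZero (P : Subgroup G) _ ((t : G)⁻¹ * (u : G) * t) = _
    rw [extendByZero_of_mem _ _ hm]
    apply congrArg
    apply Subtype.ext
    have := Subgroup.mem_centralizer_iff.mp ht u u.2
    change (t : G)⁻¹ * (u : G) * t = u
    rw [mul_assoc, this]
    group

variable {e : ℕ} (he : Nat.card (Nn P) = e * Nat.card (Cn P))

include hcomm hstar he in
theorem index_stabilizer (θ : XP P) : (MulAction.stabilizer (Nn P) θ).index = e := by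
  have h1 : MulAction.stabilizer (Nn P) θ = (Cn P).subgroupOf (Nn P) := by
    ext t
    rw [mem_stabilizer_iff P hcomm hstar, Subgroup.mem_subgroupOf]
  have h2 : Nat.card (MulAction.stabilizer (Nn P) θ) = Nat.card (Cn P) := by
    rw [h1]
    exact Nat.card_congr (Subgroup.subgroupOfEquivOfLe (Cn_le_Nn P)).toEquiv
  have h3 := Subgroup.card_mul_index (MulAction.stabilizer (Nn P) θ)
  rw [h2, he, mul_comm] at h3
  exact Nat.eq_of_mul_eq_mul_right Nat.card_pos h3

include hcomm hstar he in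
theorem card_orbit (θ : XP P) : Nat.card (MulAction.orbit (Nn P) θ) = e := by
  rw [Nat.card_congr (MulAction.orbitEquivQuotientStabilizer (Nn P) θ)]
  exact index_stabilizer P hcomm hstar he θ

include hcomm hstar he in
theorem dvd_card_XP : e ∣ Nat.card (XP P) := by
  classical
  haveI := finite_irrCharacter (G := ↥(P : Subgroup G))
  haveI : Finite (MulAction.orbitRel.Quotient (Nn P) (XP P)) := Quotient.finite _
  letI : Fintype (MulAction.orbitRel.Quotient (Nn P) (XP P)) := Fintype.ofFinite _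
  rw [Nat.card_congr (MulAction.selfEquivSigmaOrbitsQuotientStabilizer (Nn P) (XP P)), Nat.card_sigma]
  refine Finset.dvd_sum fun ω _ => ?_
  have := index_stabilizer P hcomm hstar he (Quotient.out ω)
  exact dvd_of_eq this.symm

end Orbits

section Main

variable {G : Type u} [Group G] [Fintype G] {p : ℕ} [hp : Fact p.Prime] (P : Sylow p G)
variable [Fintype (Cn P)] [Fintype (Nn P)] [Fintype (P : Subgroup G)]
  [Fintype (IrrCharacter (P : Subgroup G))] [Fintype (IrrCharacter (Cn P))]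
variable (hstar : ∀ x ∈ (P : Subgroup G), x ≠ 1 →
  Subgroup.centralizer ({x} : Set G) = Subgroup.centralizer ((P : Subgroup G) : Set G))
variable (hpG : p ∣ Nat.card G)
variable (hcomm : ∀ a ∈ (P : Subgroup G), ∀ b ∈ (P : Subgroup G), a * b = b * a)
variable {M : ℕ} (hM1 : ∀ y ∈ Cn P, y ^ M ∈ (P : Subgroup G))
  (hM2 : ∀ y ∈ Cn P, ∀ z ∈ Cn P, (y * z) ^ M = y ^ M * z ^ M)
  (hM3 : ∀ u ∈ (P : Subgroup G), u ^ M = u)
variable {e : ℕ} (he : Nat.card (Nn P) = e * Nat.card (Cn P))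

include hstar hpG hM1 hM2 hM3 he hcomm in
/-- **A constituent with few `P`-constituents has no `C`-fixed points.** -/
theorem mult_one_zero {ψ : G → ℂ} (hψ : IsIrrCharacter G ψ) (hne : ψ ≠ fun _ => 1)
    (hu : ∃ u : (P : Subgroup G), ψ u ≠ ψ 1)
    [DecidablePred fun θ : IrrCharacter (P : Subgroup G) =>
      classInner (fun u : (P : Subgroup G) => ψ u) (θ : ↥(P : Subgroup G) → ℂ) ≠ 0]
    (hcount : ((Finset.univ.erase (oneP P)).filter fun θ : IrrCharacter (P : Subgroup G) =>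
      classInner (fun u : (P : Subgroup G) => ψ u) (θ : ↥(P : Subgroup G) → ℂ) ≠ 0).card + e <
      (Finset.univ.erase (oneP P)).card)
    (hbig : e * e + e ≤ (Finset.univ.erase (oneP P)).card) :
    classInner (fun y : Cn P => ψ y) (fun _ => 1) = 0 := by
  classical
  have hψc := isClassFunction_of_isIrrCharacter hψ
  have hψC : IsCharacter (Cn P) (fun y : Cn P => ψ y) :=
    isCharacter_restrict (Cn P) (isCharacter_of_isIrrCharacter hψ)
  obtain ⟨u, hu⟩ := hu
  -- a constituent of `ψ_C` which is not trivial on `u`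
  obtain ⟨ρ₀, hρ₀m, hρ₀u⟩ : ∃ ρ₀ : IrrCharacter (Cn P),
      classInner (fun y : Cn P => ψ y) (ρ₀ : Cn P → ℂ) ≠ 0 ∧
        (ρ₀ : Cn P → ℂ) (iP P hcomm u) ≠ (ρ₀ : Cn P → ℂ) 1 := by
    by_contra hcon
    push Not at hcon
    apply hu
    have hexp := classFunction_eq_sum (isClassFunction_of_isCharacter hψC)
    have h1 := congrFun hexp (iP P hcomm u)
    have h2 := congrFun hexp 1
    simp only [Finset.sum_apply, Pi.smul_apply, smul_eq_mul] at h1 h2
    change ψ u = _ at h1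
    change ψ 1 = _ at h2
    rw [h1, h2]
    refine Finset.sum_congr rfl fun ρ _ => ?_
    by_cases h0 : classInner (fun y : Cn P => ψ y) (ρ : Cn P → ℂ) = 0
    · simp [h0]
    · rw [hcon ρ h0]
  obtain ⟨φ, hφi, hφ, hfam⟩ := exists_phi P hcomm hM1 hM2 hM3 ρ₀.2
  let θ₀ : IrrCharacter (P : Subgroup G) := ⟨cen P hcomm ρ₀, isIrr_cen P hcomm ρ₀.2⟩
  have hθ₀ne : θ₀ ≠ oneP P := by
    intro h
    have h1 := congrFun (congrArg Subtype.val h) u
    change (ρ₀ : Cn P → ℂ) (iP P hcomm u) / (ρ₀ : Cn P → ℂ) 1 = 1 at h1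
    exact hρ₀u ((div_eq_one_iff_eq (irr_one_ne_zero ρ₀.2)).mp h1)
  -- the set-up
  let Ω : Finset (IrrCharacter (P : Subgroup G)) := Finset.univ.erase (oneP P)
  have hΩne : ∀ s ∈ Ω, ((s : IrrCharacter (P : Subgroup G)) : ↥(P : Subgroup G) → ℂ) ≠ fun _ => 1 := by
    intro s hs h
    exact (Finset.mem_erase.mp hs).1 (Subtype.ext h)
  let K : Set G := {y | y ^ M = 1}
  have hS : ∀ y ∈ Cn P, y ∉ K → ∀ t : G, t⁻¹ * y * t ∈ Cn P → t⁻¹ * y * t ∉ K → t ∈ Nn P := by
    intro y hy hyK t ht _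
    have h1 := hM1 y hy
    have h2 : (t⁻¹ * y * t) ^ M = t⁻¹ * y ^ M * t := by
      have := conj_pow (a := t⁻¹) (b := y) (i := M)
      simpa using this
    have h3 := hM1 _ ht
    rw [h2] at h3
    exact mem_normalizer_of_conj P hstar hpG h1 hyK h3
  have hCN := Cn_le_Nn P
  have hN := Nn_le_normalizer_Cn P
  have h1K : (1 : G) ∈ K := one_pow M
  let ρ : IrrCharacter (P : Subgroup G) → Cn P → ℂ := fun s => fam P hM1 hM2 φ s
  have hirr : ∀ s ∈ Ω, IsIrrCharacter (Cn P) (ρ s) := fun s _ => isIrr_fam P hcomm hM1 hM2 s.2 hφi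
  have hfree : ∀ s ∈ Ω, ∀ t : Nn P, act (Cn P) t (ρ s) = ρ s → (t : G) ∈ Cn P := fun s hs t h =>
    fam_free P hcomm hM1 hM2 hM3 hstar hφ hφi s.2 (hΩne s hs) t h
  have hinj : Set.InjOn ρ Ω := fun a _ b _ h =>
    Subtype.ext (fam_injective P hcomm hM1 hM2 hM3 hφ hφi h)
  have hKρ : ∀ s ∈ Ω, ∀ s' ∈ Ω, ∀ y : Cn P, (y : G) ∈ K → ρ s y = ρ s' y := by
    intro s _ s' _ y hy
    change fam P hM1 hM2 φ s y = fam P hM1 hM2 φ s' y
    rw [fam_of_pow_eq_one P hcomm hM1 hM2 s.2 y hy, fam_of_pow_eq_one P hcomm hM1 hM2 s'.2 y hy]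
  have hρ1 : ∀ s ∈ Ω, ρ s ≠ fun _ => 1 := fun s hs =>
    fam_ne_one P hcomm hM1 hM2 hM3 hφ s.2 (hΩne s hs)
  have hs₀ : θ₀ ∈ Ω := Finset.mem_erase.mpr ⟨hθ₀ne, Finset.mem_univ _⟩
  have hρs₀ : ρ θ₀ = ρ₀ := hfam
  have hm : classInner (fun y : Cn P => ψ y) (ρ θ₀) ≠ 0 := by rw [hρs₀]; exact hρ₀m
  have hWa : ∀ s, classInner (fun y : Cn P => ψ y) (ρ s) ≠ 0 →
      classInner (fun u : (P : Subgroup G) => ψ u) (s : ↥(P : Subgroup G) → ℂ) ≠ 0 := fun s h =>
    classInner_ne_zero_of_fam P hcomm hM1 hM2 hM3 (isCharacter_of_isIrrCharacter hψ) hφ hφi s.2 h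
  have hW : e < (Ω.filter fun s => classInner (fun y : Cn P => ψ y) (ρ s) = 0).card := by
    have h1 := Finset.card_filter_add_card_filter_not (s := Ω)
      (fun s => classInner (fun y : Cn P => ψ y) (ρ s) = 0)
    have h2 : (Ω.filter fun s => ¬ classInner (fun y : Cn P => ψ y) (ρ s) = 0).card ≤
        (Ω.filter fun θ : IrrCharacter (P : Subgroup G) =>
          classInner (fun u : (P : Subgroup G) => ψ u) (θ : ↥(P : Subgroup G) → ℂ) ≠ 0).card := by
      apply Finset.card_le_card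
      intro s hs
      rw [Finset.mem_filter] at hs ⊢
      exact ⟨hs.1, hWa s hs.2⟩
    have h3 : (Ω.filter fun θ : IrrCharacter (P : Subgroup G) =>
          classInner (fun u : (P : Subgroup G) => ψ u) (θ : ↥(P : Subgroup G) → ℂ) ≠ 0).card + e <
        Ω.card := hcount
    omega
  have hpat := pattern hCN hN hS he hirr hfree hinj hKρ h1K hψ hs₀ hm hW
  -- a character of `P` not occurring in `ψ`
  obtain ⟨lam, hlam, hlam0⟩ : ∃ lam ∈ Ω,
      classInner (fun u : (P : Subgroup G) => ψ u) (lam : ↥(P : Subgroup G) → ℂ) = 0 := by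
    by_contra hcon
    push Not at hcon
    have h1 : (Ω.filter fun θ : IrrCharacter (P : Subgroup G) =>
          classInner (fun u : (P : Subgroup G) => ψ u) (θ : ↥(P : Subgroup G) → ℂ) ≠ 0) = Ω :=
      Finset.filter_true_of_mem hcon
    have h2 : (Ω.filter fun θ : IrrCharacter (P : Subgroup G) =>
          classInner (fun u : (P : Subgroup G) => ψ u) (θ : ↥(P : Subgroup G) → ℂ) ≠ 0).card + e <
        Ω.card := hcount
    rw [h1] at h2
    omega
  have h1C : IsIrrCharacter (Cn P) (fun _ => (1 : ℂ)) :=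
    Cfsg.Agent.Lib.Char.Burnside.isIrrCharacter_one
  have hφ1 : ∀ (u : (P : Subgroup G)) (y : Cn P),
      (fun _ : Cn P => (1 : ℂ)) (iP P hcomm u * y) = (fun _ : Cn P => (1 : ℂ)) y := fun _ _ => rfl
  let θt : Cn P → ℂ := fam P hM1 hM2 (fun _ => 1) lam
  have hθt : IsIrrCharacter (Cn P) θt := isIrr_fam P hcomm hM1 hM2 lam.2 h1C
  have hθt1 : θt ≠ fun _ => 1 := fam_ne_one P hcomm hM1 hM2 hM3 hφ1 lam.2 (hΩne lam hlam)
  have hθtfree : ∀ t : Nn P, act (Cn P) t θt = θt → (t : G) ∈ Cn P := fun t h =>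
    fam_free P hcomm hM1 hM2 hM3 hstar hφ1 h1C lam.2 (hΩne lam hlam) t h
  have hθtK : ∀ y : Cn P, (y : G) ∈ K → θt y = 1 := fun y hy =>
    fam_of_pow_eq_one P hcomm hM1 hM2 lam.2 y hy
  have hθtm : classInner (fun y : Cn P => ψ y) θt = 0 := by
    by_contra h
    exact classInner_ne_zero_of_fam P hcomm hM1 hM2 hM3 (isCharacter_of_isIrrCharacter hψ) hφ1 h1C
      lam.2 h hlam0
  have hbig' : e * e ≤ (Ω.filter fun s => ¬ Cg (Cn P) (Nn P) θt (ρ s)).card := by
    have h1 := Finset.card_filter_add_card_filter_not (s := Ω)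
      (fun s => Cg (Cn P) (Nn P) θt (ρ s))
    have h2 := card_Cg_le hCN hN he hirr hfree hinj (Ω := Ω) (ρ := ρ) θt
    have h3 := hbig
    change e * e + e ≤ Ω.card at h3
    omega
  exact mult_one_eq_zero hCN hN hS he hirr hfree hinj hKρ h1K hψ hne hθt hθt1 hθtfree hθtK hθtm
    hρ1 hs₀ hpat hbig'

end Main

end Cfsg.Agent.Lib.CharDeg.TIMain
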