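import Mathlib
import Cfsg.Agent.Lib.CharDeg.TIMain
import Cfsg.Agent.Lib.Char.Clifford

/-!
# The core theorem: a small degree character is linear
-/

set_option autoImplicit false
set_option linter.unusedSectionVars false

namespace Cfsg.Agent.Lib.CharDeg.TICore

open Cfsg Cfsg.Agent.Lib.Char.Basic Cfsg.Agent.Lib.Char.Ortho Cfsg.Agent.Lib.Char.Induced
open Cfsg.Agent.Lib.Char.Complete Cfsg.Agent.Lib.CharDeg.TIForm Cfsg.Agent.Lib.CharDeg.TIPattern
open Cfsg.Agent.Lib.CharDeg.TISylow Cfsg.Agent.Lib.CharDeg.TIChars Cfsg.Agent.Lib.CharDeg.TIMain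
open scoped ComplexConjugate

universe u

section Scalar

variable {G : Type u} [Group G] [Fintype G] {n : ℕ} (σ : Representation ℂ G (Fin n → ℂ))

/-- The elements acting by scalars. -/
def scal : Subgroup G where
  carrier := {g | ∃ c : ℂ, σ g = c • (LinearMap.id : (Fin n → ℂ) →ₗ[ℂ] (Fin n → ℂ))}
  mul_mem' := by
    rintro a b ⟨c, hc⟩ ⟨d, hd⟩
    refine ⟨c * d, ?_⟩
    rw [map_mul, hc, hd]
    ext v i
    simp [mul_smul]
    ring
  one_mem' := ⟨1, by rw [map_one, one_smul]; rfl⟩
  inv_mem' := by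
    rintro a ⟨c, hc⟩
    apply (Cfsg.Agent.Lib.Char.Eigen.norm_character_eq_iff_scalar σ a⁻¹).mp
    rw [Cfsg.Agent.Lib.Char.Eigen.character_inv, RCLike.norm_conj]
    exact (Cfsg.Agent.Lib.Char.Eigen.norm_character_eq_iff_scalar σ a).mpr ⟨c, hc⟩

theorem scal_normal : (scal σ).Normal := by
  constructor
  rintro a ⟨c, hc⟩ h
  refine ⟨c, ?_⟩
  rw [map_mul, map_mul, hc]
  ext v i
  simp

theorem eq_one_of_scal_top [σ.IsIrreducible] (h : scal σ = ⊤) : n = 1 := by
  have h1 := Cfsg.Agent.Lib.Char.Zeros.sum_norm_sq_character σ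
  have h2 : ∀ g, ‖σ.character g‖ = (Module.finrank ℂ (Fin n → ℂ) : ℝ) := fun g =>
    (Cfsg.Agent.Lib.Char.Eigen.norm_character_eq_iff_scalar σ g).mpr
      (by have : g ∈ scal σ := by rw [h]; trivial
          exact this)
  simp_rw [h2] at h1
  simp only [Module.finrank_fin_fun, Finset.sum_const, Finset.card_univ, nsmul_eq_mul] at h1
  rw [← Nat.card_eq_fintype_card] at h1
  have hc : (Nat.card G : ℝ) ≠ 0 := Nat.cast_ne_zero.mpr Nat.card_pos.ne'
  have h3 : ((n : ℝ)) ^ 2 = 1 := by
    apply mul_left_cancel₀ hc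
    rw [h1, mul_one]
  have h4 : n ^ 2 = 1 := by exact_mod_cast h3
  simpa using h4

end Scalar

section General

variable {G : Type u} [Group G] [Fintype G]

/-- A character irreducible on a subgroup centralizing a normally generating subgroup is linear. -/
theorem eq_one_of_restrict_irr {χ : G → ℂ} (hχ : IsIrrCharacter G χ) (P C : Subgroup G) [Finite C]
    (hPC : ∀ u ∈ P, ∀ y ∈ C, u * y = y * u)
    (hnorm : ∀ K : Subgroup G, K.Normal → P ≤ K → K = ⊤)
    (hC : IsIrrCharacter C (fun y : C => χ y)) : χ 1 = 1 := by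
  classical
  obtain ⟨n, σ, hσ, rfl⟩ := hχ
  haveI := hσ
  let τ : Representation ℂ C (Fin n → ℂ) := σ.comp C.subtype
  have hτ : τ.IsIrreducible := Cfsg.Agent.Lib.Char.Extend.isIrreducible_of_isIrrCharacter
    (ρ := τ) hC
  have hP : P ≤ scal σ := by
    intro u hu
    obtain ⟨c, hc⟩ := schur_scalar τ hτ (σ u) (fun y => by
      apply LinearMap.ext
      intro v
      change σ u (σ y v) = σ y (σ u v)
      rw [← Module.End.mul_apply, ← map_mul, hPC u hu y y.2, map_mul, Module.End.mul_apply])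
    exact ⟨c, hc⟩
  have h1 := hnorm _ (scal_normal σ) hP
  have h2 := eq_one_of_scal_top σ h1
  subst h2
  simp [Representation.char_one]

/-- A nontrivial irreducible character cannot be trivial on a normally generating subgroup. -/
theorem exists_move {ψ : G → ℂ} (hψ : IsIrrCharacter G ψ) (hne : ψ ≠ fun _ => 1) (P : Subgroup G)
    (hnorm : ∀ K : Subgroup G, K.Normal → P ≤ K → K = ⊤) : ∃ u : P, ψ u ≠ ψ 1 := by
  classical
  by_contra hcon
  push Not at hcon
  apply hne
  obtain ⟨n, σ, hσ, rfl⟩ := hψ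
  haveI := hσ
  have hker : P ≤ MonoidHom.ker σ := by
    intro u hu
    rw [MonoidHom.mem_ker]
    have h1 := hcon ⟨u, hu⟩
    have h2 : σ.character u = ((Module.finrank ℂ (Fin n → ℂ) : ℕ) : ℂ) := by
      rw [h1, Representation.char_one]
    have h3 := (Cfsg.Agent.Lib.Char.Eigen.character_eq_finrank_iff σ u).mp h2
    exact h3
  have h1 := hnorm _ (MonoidHom.normal_ker σ) hker
  have h2 : ∀ g, σ g = 1 := fun g => by
    have : g ∈ MonoidHom.ker σ := by rw [h1]; trivial
    exact this
  have h3 : scal σ = ⊤ := by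
    rw [eq_top_iff]
    intro g _
    exact ⟨1, by rw [h2, one_smul]; rfl⟩
  have h4 := eq_one_of_scal_top σ h3
  subst h4
  funext g
  have : σ.character g = σ.character 1 := by
    change LinearMap.trace _ _ (σ g) = LinearMap.trace _ _ (σ 1)
    rw [h2 g, h2 1]
  rw [this, Representation.char_one]
  simp

end General

section Abelian

variable {A : Type u} [Group A] [Fintype A] [Fintype (IrrCharacter A)]

theorem card_irr_of_comm (hcomm : ∀ a b : A, a * b = b * a) :
    Fintype.card (IrrCharacter A) = Nat.card A := by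
  have h := sum_deg_sq_eq_card (G := A)
  have h1 : ∀ χ : IrrCharacter A, (χ : A → ℂ) 1 ^ 2 = 1 := fun χ => by
    rw [Cfsg.Agent.Lib.Char.Linear.isIrr_deg_one_of_comm hcomm χ.2, one_pow]
  simp_rw [h1] at h
  simp only [Finset.sum_const, Finset.card_univ, nsmul_eq_mul, mul_one] at h
  exact_mod_cast h

end Abelian

section Core

variable {G : Type u} [Group G] [Fintype G] {p : ℕ} [hp : Fact p.Prime] (P : Sylow p G)
variable [Fintype (Cn P)] [Fintype (Nn P)] [Fintype (P : Subgroup G)]
  [Fintype (IrrCharacter (P : Subgroup G))] [Fintype (IrrCharacter (Cn P))]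
  [Fintype (IrrCharacter G)]
variable (hstar : ∀ x ∈ (P : Subgroup G), x ≠ 1 →
  Subgroup.centralizer ({x} : Set G) = Subgroup.centralizer ((P : Subgroup G) : Set G))
variable (hpG : p ∣ Nat.card G)

include hstar in
theorem e_le_support (hcomm : ∀ a ∈ (P : Subgroup G), ∀ b ∈ (P : Subgroup G), a * b = b * a)
    {e : ℕ} (he : Nat.card (Nn P) = e * Nat.card (Cn P))
    {ψ : G → ℂ} (hψ : IsClassFunction G ψ) (θ : XP P)
    (hθ : classInner (fun u : (P : Subgroup G) => ψ u)
      ((θ : IrrCharacter (P : Subgroup G)) : ↥(P : Subgroup G) → ℂ) ≠ 0)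
    [DecidablePred fun s : IrrCharacter (P : Subgroup G) =>
      classInner (fun u : (P : Subgroup G) => ψ u) (s : ↥(P : Subgroup G) → ℂ) ≠ 0] :
    e ≤ ((Finset.univ.erase (oneP P)).filter fun s : IrrCharacter (P : Subgroup G) =>
      classInner (fun u : (P : Subgroup G) => ψ u) (s : ↥(P : Subgroup G) → ℂ) ≠ 0).card := by
  classical
  rw [← card_orbit P hcomm hstar he θ]
  set S := (Finset.univ.erase (oneP P)).filter fun s : IrrCharacter (P : Subgroup G) =>
      classInner (fun u : (P : Subgroup G) => ψ u) (s : ↥(P : Subgroup G) → ℂ) ≠ 0 with hS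
  have hc : Nat.card ↥S = S.card := by rw [Nat.card_eq_fintype_card, Fintype.card_coe]
  rw [← hc]
  refine Nat.card_le_card_of_injective (fun x => ⟨x.1.1, ?_⟩) ?_
  · obtain ⟨t, ht⟩ := x.2
    rw [hS, Finset.mem_filter, Finset.mem_erase]
    refine ⟨⟨x.1.2, Finset.mem_univ _⟩, ?_⟩
    have h1 : ((x.1 : XP P) : IrrCharacter (P : Subgroup G)) = ((t • θ : XP P) : IrrCharacter (P : Subgroup G)) := by
      rw [← ht]
    rw [h1]
    change classInner _ (act (P : Subgroup G) t _) ≠ 0
    rw [classInner_act_right _ _ t.2 hψ]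
    exact hθ
  · intro a b hab
    have := congrArg (fun z : ↥S => (z : IrrCharacter (P : Subgroup G))) hab
    exact Subtype.ext (Subtype.ext this)

theorem exists_constituent {f : ↥(P : Subgroup G) → ℂ}
    (hf : IsClassFunction (P : Subgroup G) f) (u : (P : Subgroup G)) (hu : f u ≠ f 1) :
    ∃ θ : XP P, classInner f ((θ : IrrCharacter (P : Subgroup G)) : ↥(P : Subgroup G) → ℂ) ≠ 0 := by
  classical
  by_contra hcon
  push Not at hcon
  apply hu
  have hexp := classFunction_eq_sum hf
  have h1 := congrFun hexp u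
  have h2 := congrFun hexp 1
  simp only [Finset.sum_apply, Pi.smul_apply, smul_eq_mul] at h1 h2
  rw [h1, h2]
  refine Finset.sum_congr rfl fun θ _ => ?_
  by_cases h : θ = oneP P
  · subst h
    rfl
  · rw [hcon ⟨θ, h⟩]
    simp

theorem support_bound (hcomm' : ∀ a b : ↥(P : Subgroup G), a * b = b * a) {Θ ψ : G → ℂ}
    (hΘ : IsCharacter G Θ) (hψ : IsIrrCharacter G ψ) (h : classInner Θ ψ ≠ 0) {d K : ℕ}
    (hd : Θ 1 = d)
    (hK : classInner (fun u : (P : Subgroup G) => Θ u)
      ((oneP P : IrrCharacter (P : Subgroup G)) : ↥(P : Subgroup G) → ℂ) = K)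
    [DecidablePred fun s : IrrCharacter (P : Subgroup G) =>
      classInner (fun u : (P : Subgroup G) => ψ u) (s : ↥(P : Subgroup G) → ℂ) ≠ 0] :
    ((Finset.univ.erase (oneP P)).filter fun s : IrrCharacter (P : Subgroup G) =>
      classInner (fun u : (P : Subgroup G) => ψ u) (s : ↥(P : Subgroup G) → ℂ) ≠ 0).card + K ≤ d := by
  classical
  have hsub := Cfsg.Agent.Lib.Char.Clifford.isCharacter_sub_of_classInner_ne_zero hΘ hψ h
  have hψ' := isCharacter_of_isIrrCharacter hψ
  have h1P := isCharacter_restrict (P : Subgroup G) hψ'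
  have h2P := isCharacter_restrict (P : Subgroup G) hsub
  obtain ⟨k1, hk1⟩ := exists_nat_classInner h1P (isCharacter_of_isIrrCharacter (oneP P).2)
  obtain ⟨k2, hk2⟩ := exists_nat_classInner h2P (isCharacter_of_isIrrCharacter (oneP P).2)
  obtain ⟨d1, hd1⟩ := exists_deg_of_isCharacter hψ'
  obtain ⟨d2, hd2⟩ := exists_deg_of_isCharacter hsub
  have h3 := card_support_add_le hcomm' h1P (oneP P) hk1 hd1
  have h4 := card_support_add_le hcomm' h2P (oneP P) hk2 hd2
  have hdd : d = d1 + d2 := by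
    have h5 : (d : ℂ) = d1 + d2 := by
      rw [← hd, ← hd1, ← hd2]
      simp
    exact_mod_cast h5
  have hKK : K = k1 + k2 := by
    have h5 : (fun u : (P : Subgroup G) => Θ u) =
        (fun u : (P : Subgroup G) => ψ u) + (fun u : (P : Subgroup G) => (Θ - ψ) u) := by
      funext u
      simp
    rw [h5, classInner_add_left, hk1, hk2] at hK
    have h6 : (K : ℂ) = k1 + k2 := hK.symm
    exact_mod_cast h6
  omega

/-- The inner product of `χ χ̄` with the trivial character. -/
theorem classInner_theta {H : Type u} [Group H] [Fintype H] (f : H →* G) {χ : G → ℂ}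
    (hχ : IsCharacter G χ) :
    classInner (fun y : H => χ (f y) * χ (f y)⁻¹) (fun _ => 1) =
      classInner (fun y : H => χ (f y)) (fun y => χ (f y)) := by
  unfold classInner
  congr 1
  refine Finset.sum_congr rfl fun y _ => ?_
  beta_reduce
  rw [char_inv_eq_conj hχ]
  simp

include hstar hpG in
/-- **The core theorem.** -/
theorem core (hnorm : ∀ K : Subgroup G, K.Normal → (P : Subgroup G) ≤ K → K = ⊤) {χ : G → ℂ}
    (hχ : IsIrrCharacter G χ) (h1 : χ ≠ fun _ => 1) {N x : ℕ}
    (hN : Nat.card (P : Subgroup G) = N) (hx : χ 1 = x) (hdeg : x ^ 2 + 1 < N) :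
    x = 1 ∧ Nat.card (Nn P) = Nat.card (Cn P) := by
  classical
  have hcomm := comm_of_star P hstar hpG
  obtain ⟨M, hM1, hM2, hM3⟩ := exists_power P hstar hpG
  obtain ⟨e, he⟩ : ∃ e, Nat.card (Nn P) = e * Nat.card (Cn P) := by
    obtain ⟨e, he⟩ := Subgroup.card_dvd_of_le (Cn_le_Nn P)
    exact ⟨e, by rw [he, mul_comm]⟩
  have hepos : 0 < e := by
    rcases Nat.eq_zero_or_pos e with h | h
    · rw [h, zero_mul] at he
      exact absurd he Nat.card_pos.ne'
    · exact h
  have hcomm' : ∀ a b : ↥(P : Subgroup G), a * b = b * a := fun a b =>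
    Subtype.ext (hcomm a a.2 b b.2)
  set Ω := Finset.univ.erase (oneP P) with hΩ
  have hΩc : Ω.card + 1 = N := by
    rw [hΩ, Finset.card_erase_of_mem (Finset.mem_univ _), Finset.card_univ,
      card_irr_of_comm hcomm', hN]
    have : 0 < N := hN ▸ Nat.card_pos
    omega
  have hdvd : e ∣ Ω.card := by
    have h2 := dvd_card_XP P hcomm hstar he
    have h3 : Nat.card (XP P) = Ω.card := by
      rw [Nat.card_eq_fintype_card, Fintype.card_subtype, hΩ]
      congr 1
      ext θ
      simp
    rwa [h3] at h2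
  have hχC := isCharacter_of_isIrrCharacter hχ
  have hχP : IsCharacter _ (fun u : (P : Subgroup G) => χ u) := isCharacter_restrict _ hχC
  have hex : e ≤ x := by
    obtain ⟨u, hu⟩ := exists_move hχ h1 (P : Subgroup G) hnorm
    have hf := isClassFunction_of_isCharacter hχP
    obtain ⟨θ, hθ⟩ := exists_constituent P hf u (by simpa using hu)
    have h3 := e_le_support P hstar hcomm he (isClassFunction_of_isIrrCharacter hχ) θ hθ
    obtain ⟨k, hk⟩ := exists_nat_classInner hχP (isCharacter_of_isIrrCharacter (oneP P).2)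
    have h4 := card_support_add_le hcomm' hχP (oneP P) hk hx
    omega
  have hbig : e * e + e ≤ Ω.card := by
    obtain ⟨f, hf⟩ := hdvd
    have hlt : e * e < e * f := by
      have h3 : x ^ 2 < e * f := by omega
      calc e * e ≤ x * x := Nat.mul_le_mul hex hex
        _ = x ^ 2 := by ring
        _ < e * f := h3
    have h3 : e < f := Nat.lt_of_mul_lt_mul_left hlt
    rw [hf]
    nlinarith
  let Θ : G → ℂ := fun g => χ g * χ g⁻¹
  have hΘ : IsCharacter G Θ := isCharacter_mul hχC (isCharacter_inv hχC)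
  have hΘ1 : Θ 1 = ((x ^ 2 : ℕ) : ℂ) := by
    change χ 1 * χ 1⁻¹ = _
    rw [inv_one, hx]
    push_cast
    ring
  obtain ⟨n, -, hn1, hn2⟩ := exists_coeff hcomm' hχP
  have hΘP : classInner (fun u : (P : Subgroup G) => Θ u)
      ((oneP P : IrrCharacter (P : Subgroup G)) : ↥(P : Subgroup G) → ℂ) =
      ((∑ θ, n θ ^ 2 : ℕ) : ℂ) := by
    rw [← hn2]
    exact classInner_theta (P : Subgroup G).subtype hχC
  have hKx : x ≤ ∑ θ, n θ ^ 2 := by
    have h3 : (x : ℂ) = ((∑ θ, n θ : ℕ) : ℂ) := by rw [← hx]; exact hn1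
    have h4 : x = ∑ θ, n θ := by exact_mod_cast h3
    rw [h4]
    exact Finset.sum_le_sum fun θ _ => Nat.le_self_pow (by norm_num) _
  have hmult : ∀ ψ : IrrCharacter G, (ψ : G → ℂ) ≠ (fun _ => 1) → classInner Θ (ψ : G → ℂ) ≠ 0 →
      classInner (fun y : Cn P => (ψ : G → ℂ) y) (fun _ => 1) = 0 := by
    intro ψ hne hm
    have hb := support_bound P hcomm' hΘ ψ.2 hm hΘ1 hΘP
    refine mult_one_zero P hstar hpG hcomm hM1 hM2 hM3 he ψ.2 hne
      (exists_move ψ.2 hne (P : Subgroup G) hnorm) ?_ hbig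
    change _ + e < Ω.card
    omega
  have hΘc : IsClassFunction G Θ := isClassFunction_of_isCharacter hΘ
  have hexp := classFunction_eq_sum hΘc
  let oneG : IrrCharacter G := ⟨fun _ => 1, Cfsg.Agent.Lib.Char.Burnside.isIrrCharacter_one⟩
  have hCinner : classInner (fun y : Cn P => χ y) (fun y : Cn P => χ y) = 1 := by
    have h3 : classInner (fun y : Cn P => Θ y) (fun _ => 1) =
        classInner (fun y : Cn P => χ y) (fun y : Cn P => χ y) :=
      classInner_theta (Cn P).subtype hχC
    rw [← h3]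
    have h4 : (fun y : Cn P => Θ y) =
        ∑ ψ : IrrCharacter G, classInner Θ (ψ : G → ℂ) • (fun y : Cn P => (ψ : G → ℂ) y) := by
      funext y
      have := congrFun hexp y
      simp only [Finset.sum_apply, Pi.smul_apply, smul_eq_mul] at this ⊢
      exact this
    rw [h4, classInner_sum_left, Finset.sum_eq_single oneG]
    · rw [classInner_smul_left]
      have h5 : classInner Θ ((oneG : IrrCharacter G) : G → ℂ) = classInner χ χ :=
        classInner_theta (MonoidHom.id G) hχC
      have h6 : classInner (fun y : Cn P => ((oneG : IrrCharacter G) : G → ℂ) y) (fun _ => 1) = 1 :=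
        classInner_self_of_isIrr Cfsg.Agent.Lib.Char.Burnside.isIrrCharacter_one
      rw [h5, h6, classInner_self_of_isIrr hχ, one_mul]
    · intro ψ _ hψ
      rw [classInner_smul_left]
      by_cases h0 : classInner Θ (ψ : G → ℂ) = 0
      · rw [h0, zero_mul]
      · rw [hmult ψ (fun h => hψ (Subtype.ext h)) h0, mul_zero]
    · intro h
      exact absurd (Finset.mem_univ _) h
  have hirrC : IsIrrCharacter (Cn P) (fun y : Cn P => χ y) :=
    isIrrCharacter_of_classInner_self_eq_one (isCharacter_restrict _ hχC) hCinner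
  have hPC : ∀ u ∈ (P : Subgroup G), ∀ y ∈ Cn P, u * y = y * u := fun u hu y hy =>
    Subgroup.mem_centralizer_iff.mp hy u hu
  have hone := eq_one_of_restrict_irr hχ (P : Subgroup G) (Cn P) hPC hnorm hirrC
  have hx1 : x = 1 := by
    rw [hx] at hone
    exact_mod_cast hone
  refine ⟨hx1, ?_⟩
  have he1 : e = 1 := by omega
  rw [he, he1, one_mul]

end Core

end Cfsg.Agent.Lib.CharDeg.TICore
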